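import Cfsg.Agent.H2.MinU.Four.Lines
import Cfsg.Agent.H3.Geometry

/-!
The minimal index of `PSU 4`.
-/

set_option autoImplicit false

namespace Cfsg.Agent.H2.MinU

open Matrix MulAction

variable {F : Type*} [Field F] [Fintype F] {q : ℕ}

/-- A bound for proper subgroups of `SU n` passes to `PSU n`, and an index of a subgroup
containing the scalars as well. -/
theorem psu_min (n : ℕ) {L : ℕ} (hb : ∀ H : Subgroup (Cfsg.SU n F q), H ≠ ⊤ → L ≤ H.index)
    (ha : ∃ H : Subgroup (Cfsg.SU n F q), Subgroup.center (Cfsg.SU n F q) ≤ H ∧ H.index = L) :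
    (∀ H : Subgroup (Cfsg.PSU n F q), H ≠ ⊤ → L ≤ H.index) ∧
      ∃ H : Subgroup (Cfsg.PSU n F q), H.index = L := by
  have hsurj := QuotientGroup.mk'_surjective (Subgroup.center (Cfsg.SU n F q))
  refine ⟨fun H hH => ?_, ?_⟩
  · rw [← Subgroup.index_comap_of_surjective H hsurj]
    exact hb _ fun h => hH (Subgroup.comap_injective hsurj (h.trans (Subgroup.comap_top _).symm))
  · obtain ⟨H, hZ, hH⟩ := ha
    refine ⟨H.map (QuotientGroup.mk' _), ?_⟩
    rw [Subgroup.index_map_eq H hsurj (by rw [QuotientGroup.ker_mk']; exact hZ), hH]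

/-- Scalars stabilise every subspace. -/
theorem center_le_stab (hF : Fintype.card F = q ^ 2) {n : ℕ} (hn : 2 ≤ n)
    (W : Submodule F (Fin n → F)) :
    Subgroup.center (Cfsg.SU n F q) ≤
      (Cfsg.stabilizing (Cfsg.slToMat n F) (W : Set (Fin n → F))).subgroupOf (Cfsg.SU n F q) := by
  intro g hg
  obtain ⟨l, hl⟩ := (H3.mem_center_SU_iff hF hn g).mp hg
  have hl0 : l ≠ 0 := fun h => by
    have := act_ne_zero g (x := fun _ => (1 : F)) (fun e => one_ne_zero (α := F) (congrFun e ⟨0, by omega⟩))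
    exact this (by show (g.1 : Matrix (Fin n) (Fin n) F) *ᵥ _ = 0; rw [hl, h, zero_smul])
  intro v
  show v ∈ W ↔ (g.1 : Matrix (Fin n) (Fin n) F) *ᵥ v ∈ W
  rw [hl, W.smul_mem_iff hl0]

/-- The line stabiliser in `SU 4`. -/
theorem exists_index_L4 (D : Dat F q) :
    ∃ H : Subgroup (Cfsg.SU (2 + 2) F q), Subgroup.center (Cfsg.SU (2 + 2) F q) ≤ H ∧ H.index = L4 q := by
  classical
  have hF := D.hF
  have hli : LinearIndependent F ![D.p 2, ell D] := by
    rw [LinearIndependent.pair_iff]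
    intro a b h
    have e1 := congrArg (fun u => Cfsg.hermForm (2 + 2) F q u (D.p' 2)) h
    have e2 := congrArg (fun u => Cfsg.hermForm (2 + 2) F q u (up D.e')) h
    simp only [hadd_l hF (n := 2 + 2), hsmul_l hF (n := 2 + 2), hzero_l hF (n := 2 + 2), ell, D.p_p',
      D.up_p', D.p_up, D.form_up, D.pair, mul_zero, mul_one, add_zero, zero_add] at e1 e2
    exact ⟨e1, e2⟩
  set W := Submodule.span F (Set.range ![D.p 2, ell D]) with hW
  have hWk : Module.finrank F W = 2 := by rw [hW, finrank_span_eq_card hli, Fintype.card_fin]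
  have hWi : ∀ u ∈ W, ∀ v ∈ W, Cfsg.hermForm (2 + 2) F q u v = 0 := by
    intro u hu v hv
    rw [hW, Matrix.range_cons_cons_empty, Submodule.mem_span_pair] at hu hv
    obtain ⟨a, b, rfl⟩ := hu
    obtain ⟨c, d, rfl⟩ := hv
    simp only [hadd_l hF, hadd_r hF, hsmul_l hF, hsmul_r hF, D.p_iso, p_ell D, ell_iso D,
      hswap_zero hF (p_ell D), mul_zero, add_zero]
  refine ⟨_, center_le_stab hF (by norm_num) W, ?_⟩
  set H := (Cfsg.stabilizing (Cfsg.slToMat (2 + 2) F) (W : Set (Fin (2 + 2) → F))).subgroupOf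
    (Cfsg.SU (2 + 2) F q)
  have h1 := H3.card_su_stab_isotropic hF (m := 0) (k := 2) rfl (by norm_num) W hWk hWi
  change (q + 1) * Nat.card H = _ at h1
  have h2 := H3.card_SU hF (n := 2 + 2) (by norm_num)
  have h3 := H.index_mul_card
  have hq := H3.two_le_q hF
  rw [H3.card_GU hF, ← h3] at h2
  rw [H3.card_GU hF] at h1
  simp only [Fin.prod_univ_two, Fin.val_zero, Fin.val_one, pow_zero, pow_one, Finset.prod_range_succ,
    Finset.prod_range_zero, Nat.reduceAdd, Nat.reduceMul, Nat.reduceSub, Nat.reduceDiv, one_mul,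
    mul_one, ← pow_mul] at h1 h2
  norm_num [parity_simps, -Nat.card_eq_fintype_card] at h1 h2
  have hH : 0 < (q + 1) * Nat.card H := Nat.mul_pos (by omega) Nat.card_pos
  refine Nat.eq_of_mul_eq_mul_right hH ?_
  rw [show H.index * ((q + 1) * Nat.card H) = (q + 1) * (H.index * Nat.card H) by ring, h2, h1, L4]
  zify [Nat.one_le_pow 4 q (by omega), Nat.one_le_pow 2 q (by omega),
    Nat.pow_le_pow_right (show 0 < q by omega) (show 2 ≤ 4 by norm_num)]
  ring

/-- The minimal index of `PSU 4`. -/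
theorem psu_four_min (hF : Fintype.card F = q ^ 2) :
    (∀ H : Subgroup (Cfsg.PSU (2 + 2) F q), H ≠ ⊤ → L4 q ≤ H.index) ∧
      ∃ H : Subgroup (Cfsg.PSU (2 + 2) F q), H.index = L4 q := by
  obtain ⟨D⟩ := exists_dat hF
  refine psu_min (2 + 2) (fun H hH => ?_) (exists_index_L4 D)
  exact four_bound D (Ω := Cfsg.SU (2 + 2) F q ⧸ H) (Subgroup.one_lt_index_of_ne_top hH)

end Cfsg.Agent.H2.MinU
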