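import Cfsg.Agent.H2.MinU.Radical
import Cfsg.Agent.H92.SL2Mat
import Mathlib.FieldTheory.ChevalleyWarning

/-!
Skew-Hermitian `2 × 2` matrices `(a, x, d)` with congruence by `SL 2`.
-/

set_option autoImplicit false

namespace Cfsg.Agent.H2.MinU.Quad

open Matrix
open scoped MatrixGroups

variable {F : Type*} [Field F] [Fintype F] {q : ℕ}

/-- The skew-Hermitian matrices, by their entries. -/
def SK (hF : Fintype.card F = q ^ 2) : AddSubgroup (F × F × F) :=
  (skew hF).prod ((⊤ : AddSubgroup F).prod (skew hF))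

lemma mem_SK {hF : Fintype.card F = q ^ 2} {t : F × F × F} :
    t ∈ SK hF ↔ t.1 + t.1 ^ q = 0 ∧ t.2.2 + t.2.2 ^ q = 0 := by
  simp [SK, AddSubgroup.mem_prod, mem_skew]

lemma card_SK (hF : Fintype.card F = q ^ 2) : Nat.card (SK hF) = q ^ 4 := by
  rw [SK, Nat.card_congr (AddSubgroup.prodEquiv _ _).toEquiv, Nat.card_prod,
    Nat.card_congr (AddSubgroup.prodEquiv _ _).toEquiv, Nat.card_prod, card_skew,
    Nat.card_congr (AddSubgroup.topEquiv (G := F)).toEquiv, Nat.card_eq_fintype_card, hF]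
  ring

/-- The determinant. -/
def det2 (q : ℕ) (t : F × F × F) : F := t.1 * t.2.2 + t.2.1 * t.2.1 ^ q

/-- Congruence by a matrix with rows `(α, β)`, `(γ, δ)`. -/
def cg4 (q : ℕ) (α β γ δ : F) (t : F × F × F) : F × F × F :=
  (α * α ^ q * t.1 + α * β ^ q * t.2.1 - β * α ^ q * t.2.1 ^ q + β * β ^ q * t.2.2,
    α * γ ^ q * t.1 + α * δ ^ q * t.2.1 - β * γ ^ q * t.2.1 ^ q + β * δ ^ q * t.2.2,
    γ * γ ^ q * t.1 + γ * δ ^ q * t.2.1 - δ * γ ^ q * t.2.1 ^ q + δ * δ ^ q * t.2.2)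

/-- Congruence by an element of `SL 2`. -/
def cg (q : ℕ) (M : SL(2, F)) : F × F × F → F × F × F := cg4 q (M 0 0) (M 0 1) (M 1 0) (M 1 1)

lemma cg_mem (hF : Fintype.card F = q ^ 2) (M : SL(2, F)) {t : F × F × F} (ht : t ∈ SK hF) :
    cg q M t ∈ SK hF := by
  obtain ⟨h1, h2⟩ := mem_SK.mp ht
  have e1 : t.1 ^ q = -t.1 := by linear_combination h1
  have e2 : t.2.2 ^ q = -t.2.2 := by linear_combination h2
  refine mem_SK.mpr ⟨?_, ?_⟩ <;>
  · simp only [cg, cg4, qadd hF, qsub hF, mul_pow, qq hF, e1, e2]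
    ring

lemma cg_add (hF : Fintype.card F = q ^ 2) (M : SL(2, F)) (s t : F × F × F) :
    cg q M (s + t) = cg q M s + cg q M t := by
  simp only [cg, cg4, Prod.fst_add, Prod.snd_add, qadd hF, Prod.mk_add_mk, Prod.mk.injEq]
  refine ⟨?_, ?_, ?_⟩ <;> ring

lemma cg_one (t : F × F × F) (hq : q ≠ 0) : cg q (1 : SL(2, F)) t = t := by
  simp [cg, cg4, zero_pow hq]

lemma cg_mul (hF : Fintype.card F = q ^ 2) (M N : SL(2, F)) {t : F × F × F} (ht : t ∈ SK hF) :
    cg q (M * N) t = cg q M (cg q N t) := by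
  obtain ⟨h1, h2⟩ := mem_SK.mp ht
  have e1 : t.1 ^ q = -t.1 := by linear_combination h1
  have e2 : t.2.2 ^ q = -t.2.2 := by linear_combination h2
  simp only [cg, cg4, H92.sl2_mul_apply, qadd hF, qsub hF, mul_pow, qq hF, e1, e2, Prod.mk.injEq]
  refine ⟨?_, ?_, ?_⟩ <;> ring

lemma cg_inv (hF : Fintype.card F = q ^ 2) (M : SL(2, F)) {t : F × F × F} (ht : t ∈ SK hF) :
    cg q M⁻¹ (cg q M t) = t := by
  rw [← cg_mul hF M⁻¹ M ht, inv_mul_cancel, cg_one t (q_ne_zero hF)]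

lemma det2_cg (hF : Fintype.card F = q ^ 2) (M : SL(2, F)) {t : F × F × F} (ht : t ∈ SK hF) :
    det2 q (cg q M t) = det2 q t := by
  obtain ⟨h1, h2⟩ := mem_SK.mp ht
  have e1 : t.1 ^ q = -t.1 := by linear_combination h1
  have e2 : t.2.2 ^ q = -t.2.2 := by linear_combination h2
  have hd := H92.sl2_det M
  have hd' : (M 0 0) ^ q * (M 1 1) ^ q - (M 0 1) ^ q * (M 1 0) ^ q = 1 := by
    rw [← mul_pow, ← mul_pow, ← qsub hF, hd, one_pow]
  simp only [det2, cg, cg4, qadd hF, qsub hF, mul_pow, qq hF, e1, e2]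
  linear_combination ((t.1 * t.2.2 + t.2.1 * t.2.1 ^ q) *
    ((M 0 0) ^ q * (M 1 1) ^ q - (M 0 1) ^ q * (M 1 0) ^ q)) * hd +
    (t.1 * t.2.2 + t.2.1 * t.2.1 ^ q) * hd'

lemma det2_real (hF : Fintype.card F = q ^ 2) {t : F × F × F} (ht : t ∈ SK hF) :
    det2 q t ^ q = det2 q t := by
  obtain ⟨h1, h2⟩ := mem_SK.mp ht
  have e1 : t.1 ^ q = -t.1 := by linear_combination h1
  have e2 : t.2.2 ^ q = -t.2.2 := by linear_combination h2
  simp only [det2, qadd hF, mul_pow, qq hF, e1, e2]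
  ring

/-- A row with a non-zero value first. -/
lemma exists_fst_ne (hF : Fintype.card F = q ^ 2) {t : F × F × F} (ht : det2 q t ≠ 0) :
    ∃ M : SL(2, F), (cg q M t).1 ≠ 0 := by
  have hq0 := q_ne_zero hF
  by_cases ha : t.1 ≠ 0
  · exact ⟨1, by rwa [cg_one t hq0]⟩
  push Not at ha
  by_cases hd : t.2.2 ≠ 0
  · exact ⟨H92.sw, by simpa [cg, cg4, H92.sw, zero_pow hq0] using hd⟩
  push Not at hd
  have hx : t.2.1 ≠ 0 := fun hx => ht (by rw [det2, ha, hd, hx]; simp)
  obtain ⟨z, hz⟩ := H3.exists_conj_ne hF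
  refine ⟨H92.sx ((z / t.2.1) ^ q), ?_⟩
  simp only [cg, cg4, H92.sx, ha, hd, mul_zero, add_zero, zero_add, Matrix.cons_val',
    Matrix.cons_val_zero, Matrix.cons_val_one, Matrix.cons_val_fin_one, Matrix.of_apply, one_pow,
    mul_one, one_mul, qq hF]
  rw [div_mul_cancel₀ _ hx, ← mul_pow, div_mul_cancel₀ _ hx]
  exact fun h => hz (sub_eq_zero.mp h).symm

/-- Congruence is transitive on each non-zero determinant. -/
theorem exists_cg_eq (hF : Fintype.card F = q ^ 2) {s t : F × F × F} (hs : s ∈ SK hF)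
    (ht : t ∈ SK hF) (h0 : det2 q s ≠ 0) (h : det2 q s = det2 q t) :
    ∃ M : SL(2, F), cg q M s = t := by
  obtain ⟨δ₀, hδ₀, hδ₀'⟩ := H3.exists_trace_zero_ne_zero hF
  suffices key : ∀ u ∈ SK hF, det2 q u ≠ 0 → ∃ M : SL(2, F), cg q M u = (δ₀, 0, det2 q u / δ₀) by
    obtain ⟨M, hM⟩ := key s hs h0
    obtain ⟨N, hN⟩ := key t ht (h ▸ h0)
    refine ⟨N⁻¹ * M, ?_⟩
    rw [cg_mul hF _ _ hs, hM, h, ← hN, cg_inv hF N ht]
  intro u hu hu0
  obtain ⟨M₀, hM₀⟩ := exists_fst_ne hF hu0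
  have hv := cg_mem hF M₀ hu
  obtain ⟨h1, -⟩ := mem_SK.mp hv
  set v := cg q M₀ u with hvdef
  have hva : v.1 ^ q = -v.1 := by linear_combination h1
  obtain ⟨α, hα⟩ := H3.exists_norm_eq hF (μ := δ₀ / v.1)
    (by rw [div_pow, hva, show δ₀ ^ q = -δ₀ by linear_combination hδ₀', neg_div_neg_eq])
  have hα0 : α ≠ 0 := fun e => by
    rw [e, zero_pow (Nat.succ_ne_zero q), eq_comm, div_eq_zero_iff] at hα
    exact hα.elim hδ₀ hM₀
  let M₁ : SL(2, F) := ⟨!![α, 0; α⁻¹ * v.2.1 ^ q / v.1, α⁻¹], by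
    simp [Matrix.det_fin_two_of, hα0]⟩
  have e1 : (cg q M₁ v).1 = δ₀ := by
    show α * α ^ q * v.1 + α * 0 ^ q * v.2.1 - 0 * α ^ q * v.2.1 ^ q + 0 * 0 ^ q * v.2.2 = δ₀
    rw [zero_pow (q_ne_zero hF), ← pow_succ', hα, div_mul_cancel₀ _ hM₀]
    ring
  have e2 : (cg q M₁ v).2.1 = 0 := by
    show α * (α⁻¹ * v.2.1 ^ q / v.1) ^ q * v.1 + α * α⁻¹ ^ q * v.2.1 -
      0 * (α⁻¹ * v.2.1 ^ q / v.1) ^ q * v.2.1 ^ q + 0 * α⁻¹ ^ q * v.2.2 = 0
    rw [div_pow, mul_pow, qq hF, hva]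
    field_simp
    ring
  refine ⟨M₁ * M₀, ?_⟩
  rw [cg_mul hF _ _ hu, ← hvdef]
  refine Prod.ext e1 (Prod.ext e2 ?_)
  have e := (det2_cg hF M₁ hv).trans (det2_cg hF M₀ hu)
  rw [det2, e1, e2, zero_mul, add_zero] at e
  rw [eq_div_iff hδ₀, mul_comm, e]

/-- The size of a non-zero determinant class. -/
theorem card_class (hF : Fintype.card F = q ^ 2) {c : F} (hc : c ^ q = c) (hc0 : c ≠ 0) :
    {t : F × F × F | t ∈ SK hF ∧ det2 q t = c}.ncard = q ^ 3 + q := by
  classical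
  have hq := H3.two_le_q hF
  have e : {t : F × F × F | t ∈ SK hF ∧ det2 q t = c} ≃
      Σ x : F, {p : skew hF × skew hF // p.1.1 * p.2.1 = c - x * x ^ q} :=
    { toFun := fun t => ⟨t.1.2.1, (⟨_, (mem_SK.mp t.2.1).1⟩, ⟨_, (mem_SK.mp t.2.1).2⟩), by
        have h : t.1.1 * t.1.2.2 + t.1.2.1 * t.1.2.1 ^ q = c := t.2.2
        show t.1.1 * t.1.2.2 = c - t.1.2.1 * t.1.2.1 ^ q
        linear_combination h⟩
      invFun := fun p => ⟨(p.2.1.1.1, p.1, p.2.1.2.1), mem_SK.mpr ⟨p.2.1.1.2, p.2.1.2.2⟩, by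
        show p.2.1.1.1 * p.2.1.2.1 + p.1 * p.1 ^ q = c
        linear_combination p.2.2⟩
      left_inv := fun t => rfl
      right_inv := fun p => rfl }
  rw [← Nat.card_coe_set_eq, Nat.card_congr e, Nat.card_sigma]
  have hne : ∀ r : F, r ^ q = r → r ≠ 0 →
      Nat.card {p : skew hF × skew hF // p.1.1 * p.2.1 = r} = q - 1 := by
    intro r hr hr0
    have h1 : Nat.card {a : skew hF // a ≠ 0} = q - 1 := by
      rw [Nat.card_eq_fintype_card, Fintype.card_subtype_compl, Fintype.card_subtype_eq,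
        ← Nat.card_eq_fintype_card, card_skew]
    rw [← h1]
    refine Nat.card_congr
      { toFun := fun p => ⟨p.1.1, fun h => hr0 (by rw [← p.2, h, ZeroMemClass.coe_zero, zero_mul])⟩
        invFun := fun a => ⟨(a.1, ⟨r / a.1.1, ?_⟩), ?_⟩
        left_inv := ?_
        right_inv := fun a => rfl }
    · have ha : a.1.1 + a.1.1 ^ q = 0 := a.1.2
      rw [mem_skew, div_pow, hr, show a.1.1 ^ q = -a.1.1 by linear_combination ha, div_neg,
        add_neg_cancel]
    · exact mul_div_cancel₀ r fun h => a.2 (Subtype.ext h)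
    · rintro ⟨⟨a, b⟩, h⟩
      have ha : a.1 ≠ 0 := fun ha => hr0 (by rw [← h, ha, zero_mul])
      refine Subtype.ext (Prod.ext rfl (Subtype.ext ?_))
      show r / a.1 = b.1
      rw [← h, mul_div_cancel_left₀ _ ha]
  have hzero : Nat.card {p : skew hF × skew hF // p.1.1 * p.2.1 = 0} = q + (q - 1) := by
    have hcompl : Nat.card {p : skew hF × skew hF // ¬ p.1.1 * p.2.1 = 0} = (q - 1) * (q - 1) := by
      have h1 : Nat.card {a : skew hF // a ≠ 0} = q - 1 := by
        rw [Nat.card_eq_fintype_card, Fintype.card_subtype_compl, Fintype.card_subtype_eq,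
          ← Nat.card_eq_fintype_card, card_skew]
      rw [← h1, ← Nat.card_prod]
      refine Nat.card_congr
        { toFun := fun p => (⟨p.1.1, fun h => p.2 (by rw [h, ZeroMemClass.coe_zero, zero_mul])⟩,
            ⟨p.1.2, fun h => p.2 (by rw [h, ZeroMemClass.coe_zero, mul_zero])⟩)
          invFun := fun a => ⟨(a.1.1, a.2.1),
            mul_ne_zero (fun h => a.1.2 (Subtype.ext h)) (fun h => a.2.2 (Subtype.ext h))⟩
          left_inv := fun p => rfl
          right_inv := fun a => rfl }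
    rw [Nat.card_eq_fintype_card, Fintype.card_subtype_compl, ← Nat.card_eq_fintype_card,
      ← Nat.card_eq_fintype_card, Nat.card_prod, card_skew] at hcompl
    have hle : Nat.card {p : skew hF × skew hF // p.1.1 * p.2.1 = 0} ≤ q * q := by
      refine le_trans (Nat.card_le_card_of_injective Subtype.val Subtype.val_injective) ?_
      rw [Nat.card_prod, card_skew]
    obtain ⟨j, rfl⟩ : ∃ j, q = j + 1 := ⟨q - 1, by omega⟩
    rw [Nat.add_sub_cancel] at hcompl ⊢
    have : (j + 1) * (j + 1) = j * j + 2 * j + 1 := by ring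
    omega
  have hterm : ∀ x : F, Nat.card {p : skew hF × skew hF // p.1.1 * p.2.1 = c - x * x ^ q} =
      (q - 1) + if x ^ (q + 1) = c then q else 0 := by
    intro x
    split_ifs with h
    · rw [← pow_succ', h, sub_self, hzero, add_comm]
    · rw [add_zero]
      refine hne _ ?_ ?_
      · rw [qsub hF, mul_pow, qq hF, hc, mul_comm x]
      · rw [← pow_succ']; exact sub_ne_zero.mpr (Ne.symm h)
  rw [Finset.sum_congr rfl fun x _ => hterm x, Finset.sum_add_distrib, Finset.sum_const,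
    Finset.sum_ite, Finset.sum_const_zero, Finset.sum_const, add_zero, smul_eq_mul, smul_eq_mul,
    Finset.card_univ, hF, ← Fintype.card_subtype, ← Nat.card_eq_fintype_card,
    H3.card_norm_eq hF hc0 hc]
  obtain ⟨j, rfl⟩ : ∃ j, q = j + 1 := ⟨q - 1, by omega⟩
  rw [Nat.add_sub_cancel]
  ring

/-- An anisotropic additive group of skew-Hermitian matrices has at most `q ^ 2` elements. -/
theorem card_le_of_anisotropic (hF : Fintype.card F = q ^ 2) (A : AddSubgroup (F × F × F))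
    (hSK : A ≤ SK hF) (hA : ∀ t ∈ A, det2 q t = 0 → t = 0) : Nat.card A ≤ q ^ 2 := by
  classical
  obtain ⟨p, f, hp, hc, -, hpq⟩ := H3.exists_q_eq_pow hF
  haveI := Fact.mk hp
  let _ : Algebra (ZMod p) F := ZMod.algebra F p
  let R : Submodule (ZMod p) F := AddSubgroup.toZModSubmodule p
    { carrier := {a : F | a ^ q = a}
      zero_mem' := zero_pow (q_ne_zero hF)
      add_mem' := fun {a b} (ha : a ^ q = a) (hb : b ^ q = b) => by
        show (a + b) ^ q = a + b
        rw [qadd hF, ha, hb]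
      neg_mem' := fun {a} (ha : a ^ q = a) => by
        show (-a) ^ q = -a
        rw [qneg hF, ha] }
  obtain ⟨r, hr⟩ : ∃ r, r = Module.finrank (ZMod p) R := ⟨_, rfl⟩
  have hR : p ^ r = q := by
    rw [hr, ← H3.card_fixed hF]
    conv_rhs => rw [show Nat.card {x : F // x ^ q = x} = Nat.card R from rfl,
      Module.natCard_eq_pow_finrank (K := ZMod p), Nat.card_zmod]
  let V : Submodule (ZMod p) (F × F × F) := AddSubgroup.toZModSubmodule p A
  let bV := Module.finBasis (ZMod p) V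
  have hV : Nat.card A = p ^ Module.finrank (ZMod p) V := by
    rw [show Nat.card A = Nat.card V from rfl, Module.natCard_eq_pow_finrank (K := ZMod p),
      Nat.card_zmod]
  by_contra hgt
  push Not at hgt
  rw [hV, ← hR, ← pow_mul] at hgt
  have hlt : r * 2 < Module.finrank (ZMod p) V := (Nat.pow_lt_pow_iff_right hp.one_lt).mp hgt
  obtain ⟨c₀, hc₀⟩ := H3.exists_trace_eq hF (a := (1 : F)) (one_pow q)
  let B : F × F × F → F × F × F → F := fun s t => s.1 * t.2.2 + s.2.1 * t.2.1 ^ q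
  let π : F → R := fun z => ⟨c₀ * z + (c₀ * z) ^ q, by
    show (c₀ * z + (c₀ * z) ^ q) ^ q = c₀ * z + (c₀ * z) ^ q
    rw [qadd hF, qq hF, add_comm]⟩
  have hπ : ∀ a b, π (a + b) = π a + π b := fun a b => Subtype.ext (by
    show c₀ * (a + b) + (c₀ * (a + b)) ^ q = c₀ * a + (c₀ * a) ^ q + (c₀ * b + (c₀ * b) ^ q)
    rw [mul_add, qadd hF]; ring)
  let b0 : V →+ V →+ R :=
    AddMonoidHom.mk' (fun s => AddMonoidHom.mk' (fun t => π (B s.1 t.1)) fun u v => by
      rw [← hπ]; congr 1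
      show s.1.1 * (u.1 + v.1).2.2 + s.1.2.1 * (u.1 + v.1).2.1 ^ q = _
      simp only [Prod.fst_add, Prod.snd_add, qadd hF, B]; ring) fun u v => AddMonoidHom.ext fun w => by
        show π (B (u.1 + v.1) w.1) = π (B u.1 w.1) + π (B v.1 w.1)
        rw [← hπ]; congr 1
        simp only [Prod.fst_add, Prod.snd_add, B]; ring
  let b : LinearMap.BilinMap (ZMod p) V R :=
    (AddMonoidHom.mk' (fun s => (b0 s).toZModLinearMap p) fun u v => LinearMap.ext fun z => by
      show b0 (u + v) z = b0 u z + b0 v z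
      rw [map_add]; rfl).toZModLinearMap p
  let bR := Module.finBasisOfFinrankEq (ZMod p) R hr.symm
  let P : Fin r → MvPolynomial (Fin (Module.finrank (ZMod p) V)) (ZMod p) := fun k =>
    ∑ i, ∑ j, MvPolynomial.C (bR.repr (b (bV i) (bV j)) k) * (MvPolynomial.X i * MvPolynomial.X j)
  have hdeg : ∀ k, (P k).totalDegree ≤ 2 := fun k => by
    refine MvPolynomial.totalDegree_finsetSum_le fun i _ =>
      MvPolynomial.totalDegree_finsetSum_le fun j _ => ?_
    refine (MvPolynomial.totalDegree_mul _ _).trans ?_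
    rw [MvPolynomial.totalDegree_C, zero_add]
    refine (MvPolynomial.totalDegree_mul _ _).trans ?_
    rw [MvPolynomial.totalDegree_X, MvPolynomial.totalDegree_X]
  have hsum : (∑ k, (P k).totalDegree) < Fintype.card (Fin (Module.finrank (ZMod p) V)) := by
    rw [Fintype.card_fin]
    refine lt_of_le_of_lt (Finset.sum_le_sum fun k _ => hdeg k) ?_
    simpa using hlt
  have hdvd := char_dvd_card_solutions_of_fintype_sum_lt p hsum
  rw [Fintype.card_eq_nat_card] at hdvd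
  have hone : 1 < Nat.card {x : Fin (Module.finrank (ZMod p) V) → ZMod p //
      ∀ k, MvPolynomial.eval x (P k) = 0} := by
    refine lt_of_lt_of_le hp.one_lt (Nat.le_of_dvd ?_ hdvd)
    exact Nat.card_pos_iff.mpr ⟨⟨⟨0, fun k => by simp [P]⟩⟩, inferInstance⟩
  rw [Finite.one_lt_card_iff_nontrivial] at hone
  obtain ⟨⟨x, hx⟩, hx0⟩ := exists_ne (⟨0, fun k => by simp [P]⟩ :
    {x : Fin (Module.finrank (ZMod p) V) → ZMod p // ∀ k, MvPolynomial.eval x (P k) = 0})
  set v : V := ∑ i, x i • bV i with hv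
  have hb : b v v = 0 := by
    refine bR.repr.injective (Finsupp.ext fun k => ?_)
    rw [map_zero, Finsupp.zero_apply, ← hx k, hv]
    simp only [map_sum, map_smul, LinearMap.sum_apply, LinearMap.smul_apply, Finsupp.coe_finsetSum,
      Finset.sum_apply, Finsupp.coe_smul, Pi.smul_apply, smul_eq_mul, P, MvPolynomial.eval_C,
      map_mul, MvPolynomial.eval_X, Finset.mul_sum]
    rw [Finset.sum_comm]
    refine Finset.sum_congr rfl fun i _ => Finset.sum_congr rfl fun j _ => ?_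
    ring
  have hv0 : v ≠ 0 := by
    intro h
    refine hx0 (Subtype.ext (funext fun i => ?_))
    have e := congrArg (fun w => bV.repr w i) h
    simpa [hv, Finsupp.single_apply, Finset.sum_ite_eq'] using e
  refine hv0 (Subtype.ext (hA v.1 v.2 ?_))
  have h : π (B v.1 v.1) = 0 := hb
  have h' : c₀ * B v.1 v.1 + (c₀ * B v.1 v.1) ^ q = 0 := congrArg (fun w : R => w.1) h
  rw [mul_pow, show B v.1 v.1 ^ q = B v.1 v.1 from det2_real hF (hSK v.2), ← add_mul, hc₀, one_mul] at h'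
  exact h'

end Cfsg.Agent.H2.MinU.Quad
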