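import Cfsg.Agent.H2.MinU.Four.Moved
import Cfsg.Agent.H2.MinU.Four.Quad

/-!
The radical of the stabiliser of a totally isotropic line of `SU 4`.
-/

set_option autoImplicit false

namespace Cfsg.Agent.H2.MinU

open Matrix MulAction
open scoped Pointwise MatrixGroups

variable {F : Type*} [Field F] [Fintype F] {q n : ℕ}

local notation "⟪" u ", " v "⟫" => Cfsg.hermForm _ F q u v

section Pair

variable (hF : Fintype.card F = q ^ 2)

/-- The unipotent element attached to a skew-Hermitian matrix on an isotropic pair. -/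
noncomputable def uH (e₁ e₂ : Fin n → F) (t : F × F × F) : Cfsg.SU n F q :=
  E hF e₁ ((-(t.2.1 ^ q)) • e₂) t.1 * E hF e₂ 0 t.2.2

variable {e₁ e₂ : Fin n → F}

lemma act_uH (h11 : ⟪e₁, e₁⟫ = 0) (h12 : ⟪e₁, e₂⟫ = 0) (h22 : ⟪e₂, e₂⟫ = 0) {t : F × F × F}
    (ht : t ∈ Quad.SK hF) (u : Fin n → F) :
    act (uH hF e₁ e₂ t) u = u + (t.1 * ⟪u, e₁⟫ + t.2.1 * ⟪u, e₂⟫) • e₁ +
      (-(t.2.1 ^ q) * ⟪u, e₁⟫ + t.2.2 * ⟪u, e₂⟫) • e₂ := by
  obtain ⟨ha, hd⟩ := Quad.mem_SK.mp ht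
  have hok : Ok q e₁ ((-(t.2.1 ^ q)) • e₂) t.1 :=
    ⟨h11, by rw [hsmul_r hF, h12, mul_zero],
      by rw [hsmul_l hF, hsmul_r hF, h22, mul_zero, mul_zero, add_zero, ha]⟩
  rw [uH, act_mul, act_E hF hok, act_trans hF h22 hd]
  simp only [hadd_l hF, hsmul_l hF, hsmul_r hF, hswap_zero hF h12, h22, mul_zero, add_zero, qneg hF,
    qq hF]
  module

lemma uH_add (h11 : ⟪e₁, e₁⟫ = 0) (h12 : ⟪e₁, e₂⟫ = 0) (h22 : ⟪e₂, e₂⟫ = 0) {s t : F × F × F}
    (hs : s ∈ Quad.SK hF) (ht : t ∈ Quad.SK hF) :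
    uH hF e₁ e₂ (s + t) = uH hF e₁ e₂ s * uH hF e₁ e₂ t := by
  refine ext_act fun u => ?_
  rw [act_mul, act_uH hF h11 h12 h22 (add_mem hs ht), act_uH hF h11 h12 h22 ht,
    act_uH hF h11 h12 h22 hs]
  simp only [hadd_l hF, hsmul_l hF, h11, h12, h22, hswap_zero hF h12, mul_zero, add_zero,
    Prod.fst_add, Prod.snd_add, qadd hF]
  module

lemma uH_zero (h11 : ⟪e₁, e₁⟫ = 0) (h12 : ⟪e₁, e₂⟫ = 0) (h22 : ⟪e₂, e₂⟫ = 0) :
    uH hF e₁ e₂ 0 = 1 := by
  have h := uH_add hF h11 h12 h22 (Quad.SK hF).zero_mem (Quad.SK hF).zero_mem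
  rwa [add_zero, left_eq_mul] at h

lemma uH_conj (g : Cfsg.SU n F q) (h11 : ⟪e₁, e₁⟫ = 0) (h12 : ⟪e₁, e₂⟫ = 0) (h22 : ⟪e₂, e₂⟫ = 0)
    {t : F × F × F} (ht : t ∈ Quad.SK hF) :
    g * uH hF e₁ e₂ t * g⁻¹ = uH hF (act g e₁) (act g e₂) t := by
  obtain ⟨ha, hd⟩ := Quad.mem_SK.mp ht
  have hok : Ok q e₁ ((-(t.2.1 ^ q)) • e₂) t.1 :=
    ⟨h11, by rw [hsmul_r hF, h12, mul_zero],
      by rw [hsmul_l hF, hsmul_r hF, h22, mul_zero, mul_zero, add_zero, ha]⟩
  rw [uH, uH, conj_mul.symm, E_conj hF g hok, E_conj hF g (ok_zero h22 hd hF), act_smul, act_zero]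

/-- A change of the basis of the pair is a congruence. -/
lemma uH_change (h11 : ⟪e₁, e₁⟫ = 0) (h12 : ⟪e₁, e₂⟫ = 0) (h22 : ⟪e₂, e₂⟫ = 0) (M : SL(2, F))
    {t : F × F × F} (ht : t ∈ Quad.SK hF) :
    uH hF (M 0 0 • e₁ + M 1 0 • e₂) (M 0 1 • e₁ + M 1 1 • e₂) t = uH hF e₁ e₂ (Quad.cg q M t) := by
  refine ext_act fun u => ?_
  have h21 := hswap_zero hF h12
  rw [act_uH hF h11 h12 h22 (Quad.cg_mem hF M ht), act_uH hF ?_ ?_ ?_ ht]
  · obtain ⟨ha, hd⟩ := Quad.mem_SK.mp ht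
    have e1 : t.1 ^ q = -t.1 := by linear_combination ha
    have e2 : t.2.2 ^ q = -t.2.2 := by linear_combination hd
    simp only [Quad.cg, Quad.cg4, hadd_r hF, hsmul_r hF, qadd hF, qsub hF, mul_pow, qq hF, e1, e2]
    module
  all_goals simp [hadd_l hF, hadd_r hF, hsmul_l hF, hsmul_r hF, h11, h12, h22, h21]

/-- A singular matrix gives a transvection. -/
lemma uH_singular (h11 : ⟪e₁, e₁⟫ = 0) (h12 : ⟪e₁, e₂⟫ = 0) (h22 : ⟪e₂, e₂⟫ = 0)
    {f₁ f₂ : Fin n → F} (g1 : ⟪e₁, f₁⟫ = 1) (g2 : ⟪e₁, f₂⟫ = 0) (g22 : ⟪e₂, f₂⟫ = 1)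
    {t : F × F × F} (ht : t ∈ Quad.SK hF) (h0 : Quad.det2 q t = 0) (hne : t ≠ 0) :
    ∃ (v : Fin n → F) (a : F), v ≠ 0 ∧ ⟪v, v⟫ = 0 ∧ a + a ^ q = 0 ∧ a ≠ 0 ∧
      uH hF e₁ e₂ t = E hF v 0 a := by
  obtain ⟨ha, hd⟩ := Quad.mem_SK.mp ht
  rw [Quad.det2] at h0
  by_cases hd0 : t.2.2 = 0
  · rw [hd0, mul_zero, zero_add, mul_eq_zero, pow_eq_zero_iff (q_ne_zero hF), or_self] at h0
    have ha0 : t.1 ≠ 0 := fun e => hne (Prod.ext e (Prod.ext h0 hd0))
    refine ⟨e₁, t.1, fun e => ?_, h11, ha, ha0, ext_act fun u => ?_⟩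
    · rw [e, hzero_l hF] at g1; exact zero_ne_one g1
    · rw [act_uH hF h11 h12 h22 ht, act_trans hF h11 ha, hd0, h0, zero_pow (q_ne_zero hF)]
      module
  · refine ⟨(t.2.1 / t.2.2) • e₁ + e₂, t.2.2, fun e => ?_, ?_, hd, hd0, ext_act fun u => ?_⟩
    · have := congrArg (fun w => Cfsg.hermForm n F q w f₂) e
      simp only [hadd_l hF (n := n), hsmul_l hF (n := n), g2, g22, mul_zero, zero_add,
        hzero_l hF (n := n)] at this
      exact one_ne_zero this
    · simp [hadd_l hF, hadd_r hF, hsmul_l hF, hsmul_r hF, h11, h12, h22, hswap_zero hF h12]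
    · rw [act_uH hF h11 h12 h22 ht, act_trans hF ?_ hd, hadd_r hF, hsmul_r hF, div_pow,
        show t.2.2 ^ q = -t.2.2 by linear_combination hd]
      · have e : t.1 = t.2.2 * ((t.2.1 / t.2.2) * (t.2.1 ^ q / -t.2.2)) := by
          field_simp
          linear_combination h0
        rw [e]
        match_scalars <;> field_simp
      · simp [hadd_l hF, hadd_r hF, hsmul_l hF, hsmul_r hF, h11, h12, h22, hswap_zero hF h12]

end Pair

variable (D : Dat F q)

/-- The second vector of the standard line. -/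
def ell : Fin (2 + 2) → F := up D.e

lemma ell_iso : ⟪ell D, ell D⟫ = 0 := by rw [ell, D.form_up]; exact D.e_iso

lemma p_ell : ⟪D.p 2, ell D⟫ = 0 := D.p_up _

/-- Every element of `SL 2` is realised on the standard line. -/
theorem exists_on_line (M : SL(2, F)) : ∃ g : Cfsg.SU (2 + 2) F q,
    act g (D.p 2) = M 0 0 • D.p 2 + M 1 0 • ell D ∧
    act g (ell D) = M 0 1 • D.p 2 + M 1 1 • ell D := by
  let P : SL(2, F) → Prop := fun M => ∃ g : Cfsg.SU (2 + 2) F q,
    act g (D.p 2) = M 0 0 • D.p 2 + M 1 0 • ell D ∧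
    act g (ell D) = M 0 1 • D.p 2 + M 1 1 • ell D
  have hee' : ⟪(up D.e : Fin (2 + 2) → F), up D.e'⟫ = 1 := by rw [D.form_up]; exact D.pair
  have he'e' : ⟪(up D.e' : Fin (2 + 2) → F), up D.e'⟫ = 0 := by rw [D.form_up]; exact D.e'_iso
  have hee : ⟪(up D.e : Fin (2 + 2) → F), up D.e⟫ = 0 := by rw [D.form_up]; exact D.e_iso
  have hsx : ∀ t, P (H92.sx t) := by
    intro t
    have hok : Ok q (D.p 2) (((-t) ^ q) • up D.e') 0 :=
      ⟨D.p_iso, by rw [hsmul_r D.hF, D.p_up, mul_zero],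
        by rw [hsmul_l D.hF, hsmul_r D.hF, he'e', zero_pow (q_ne_zero D.hF)]; ring⟩
    refine ⟨E D.hF (D.p 2) (((-t) ^ q) • up D.e') 0, ?_, ?_⟩ <;>
      rw [act_E D.hF hok, hsmul_r D.hF, qq D.hF] <;>
      simp only [H92.sx, Matrix.cons_val', Matrix.cons_val_zero, Matrix.cons_val_one,
        Matrix.cons_val_fin_one, Matrix.of_apply]
    · rw [D.p_iso, D.p_up]; module
    · rw [ell, D.up_p, hee']; module
  have hsy : ∀ t, P (H92.sy t) := by
    intro t
    have hok : Ok q (ell D) (t ^ q • D.p' 2) 0 :=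
      ⟨ell_iso D, by rw [ell, hsmul_r D.hF, D.up_p', mul_zero],
        by rw [hsmul_l D.hF, hsmul_r D.hF, D.p'_iso, zero_pow (q_ne_zero D.hF)]; ring⟩
    refine ⟨E D.hF (ell D) (t ^ q • D.p' 2) 0, ?_, ?_⟩ <;>
      rw [act_E D.hF hok, hsmul_r D.hF, qq D.hF] <;>
      simp only [H92.sy, Matrix.cons_val', Matrix.cons_val_zero, Matrix.cons_val_one,
        Matrix.cons_val_fin_one, Matrix.of_apply]
    · rw [ell, D.p_p', D.p_up]; module
    · rw [ell, hee, D.up_p']; module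
  let S : Subgroup SL(2, F) :=
    { carrier := {M | P M}
      one_mem' := ⟨1, by simp [act_one], by simp [act_one]⟩
      mul_mem' := by
        rintro M N ⟨g, g1, g2⟩ ⟨k, k1, k2⟩
        refine ⟨g * k, ?_, ?_⟩
        · rw [act_mul, k1, act_add, act_smul, act_smul, g1, g2, H92.sl2_mul_apply, H92.sl2_mul_apply]
          module
        · rw [act_mul, k2, act_add, act_smul, act_smul, g1, g2, H92.sl2_mul_apply, H92.sl2_mul_apply]
          module
      inv_mem' := by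
        rintro M ⟨g, g1, g2⟩
        have hd := H92.sl2_det M
        refine ⟨g⁻¹, act_injective g ?_, act_injective g ?_⟩ <;>
          rw [act_act_inv, act_add, act_smul, act_smul, g1, g2] <;>
          simp only [Matrix.SpecialLinearGroup.coe_inv, Matrix.adjugate_fin_two, Matrix.cons_val',
            Matrix.cons_val_zero, Matrix.cons_val_one, Matrix.cons_val_fin_one, Matrix.of_apply] <;>
          match_scalars
        all_goals first
          | ring1
          | linear_combination -hd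
          | linear_combination hd }
  have : M ∈ S := by
    have h := (Subgroup.closure_le S).mpr (show Set.range (H92.sx (F := F)) ∪ Set.range H92.sy ⊆ S by
      rintro _ (⟨t, rfl⟩ | ⟨t, rfl⟩)
      · exact hsx t
      · exact hsy t)
    rw [H92.sl2_closure_sx_sy] at h
    exact h (Subgroup.mem_top M)
  exact this

variable {Ω : Type*} [MulAction (Cfsg.SU (2 + 2) F q) Ω]

/-- The matrices fixing a point. -/
noncomputable def dX (ω : Ω) : AddSubgroup (F × F × F) where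
  carrier := {t | t ∈ Quad.SK D.hF ∧ uH D.hF (D.p 2) (ell D) t • ω = ω}
  zero_mem' := ⟨(Quad.SK D.hF).zero_mem, by
    rw [uH_zero D.hF D.p_iso (p_ell D) (ell_iso D), one_smul]⟩
  add_mem' := by
    rintro s t ⟨hs, hs'⟩ ⟨ht, ht'⟩
    exact ⟨add_mem hs ht, by
      rw [uH_add D.hF D.p_iso (p_ell D) (ell_iso D) hs ht, mul_smul, ht', hs']⟩
  neg_mem' := by
    rintro s ⟨hs, hs'⟩
    refine ⟨neg_mem hs, ?_⟩
    have e := uH_add D.hF D.p_iso (p_ell D) (ell_iso D) (neg_mem hs) hs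
    rw [neg_add_cancel, uH_zero D.hF D.p_iso (p_ell D) (ell_iso D)] at e
    conv_lhs => rw [← hs', ← mul_smul, ← e, one_smul]

/-- The homomorphism onto the radical of the line. -/
noncomputable def xHom : Multiplicative (Quad.SK D.hF) →* Cfsg.SU (2 + 2) F q where
  toFun t := uH D.hF (D.p 2) (ell D) (Multiplicative.toAdd t).1
  map_one' := uH_zero D.hF D.p_iso (p_ell D) (ell_iso D)
  map_mul' s t := uH_add D.hF D.p_iso (p_ell D) (ell_iso D) (Multiplicative.toAdd s).2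
    (Multiplicative.toAdd t).2

lemma dX_smul_X (ω : Ω) {g : Cfsg.SU (2 + 2) F q} (hg : g ∈ (xHom D).range) :
    dX D (g • ω) = dX D ω := by
  obtain ⟨s, rfl⟩ := hg
  refine AddSubgroup.ext fun t => and_congr_right fun ht => ?_
  show uH D.hF (D.p 2) (ell D) t • xHom D s • ω = xHom D s • ω ↔ _
  rw [← mul_smul, show uH D.hF (D.p 2) (ell D) t = xHom D (Multiplicative.ofAdd ⟨t, ht⟩) from rfl,
    ← map_mul, mul_comm, map_mul, mul_smul, smul_left_cancel_iff]

/-- The orbit of the radical of the line. -/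
theorem card_orbit_X (ω : Ω) :
    Nat.card (orbit (xHom D).range ω) * Nat.card (dX D ω) = q ^ 4 := by
  classical
  let _ : MulAction (Multiplicative (Quad.SK D.hF)) Ω := MulAction.compHom Ω (xHom D)
  have h := (stabilizer (Multiplicative (Quad.SK D.hF)) ω).index_mul_card
  rw [index_stabilizer] at h
  have e1 : orbit (xHom D).range ω = orbit (Multiplicative (Quad.SK D.hF)) ω := by
    ext x
    constructor
    · rintro ⟨⟨_, s, rfl⟩, rfl⟩; exact ⟨s, rfl⟩
    · rintro ⟨s, rfl⟩; exact ⟨⟨_, s, rfl⟩, rfl⟩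
  have e2 : Nat.card (stabilizer (Multiplicative (Quad.SK D.hF)) ω) = Nat.card (dX D ω) :=
    Nat.card_congr
      { toFun := fun s => ⟨(Multiplicative.toAdd s.1).1, (Multiplicative.toAdd s.1).2, s.2⟩
        invFun := fun t => ⟨Multiplicative.ofAdd ⟨t.1, t.2.1⟩, t.2.2⟩
        left_inv := fun s => rfl
        right_inv := fun t => rfl }
  rw [← e1, e2, Nat.card_congr (Multiplicative.toAdd (α := Quad.SK D.hF)), Quad.card_SK,
    ← Nat.card_coe_set_eq] at h
  exact h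

/-- A congruence moves the fixed matrices with the point. -/
theorem dX_conj (ω : Ω) (M : SL(2, F)) {g : Cfsg.SU (2 + 2) F q}
    (h1 : act g (D.p 2) = M 0 0 • D.p 2 + M 1 0 • ell D)
    (h2 : act g (ell D) = M 0 1 • D.p 2 + M 1 1 • ell D) {t : F × F × F} (ht : t ∈ Quad.SK D.hF) :
    Quad.cg q M t ∈ dX D (g • ω) ↔ t ∈ dX D ω := by
  have e := uH_conj D.hF g D.p_iso (p_ell D) (ell_iso D) ht
  rw [h1, h2, uH_change D.hF D.p_iso (p_ell D) (ell_iso D) M ht] at e
  show (_ ∧ _) ↔ (_ ∧ _)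
  rw [← e, mul_smul, mul_smul, inv_smul_smul, smul_left_cancel_iff]
  exact and_congr_left fun _ => iff_of_true (Quad.cg_mem D.hF M ht) ht

/-- The number of fixed matrices is unchanged by congruence. -/
theorem card_dX_conj (ω : Ω) (M : SL(2, F)) {g : Cfsg.SU (2 + 2) F q}
    (h1 : act g (D.p 2) = M 0 0 • D.p 2 + M 1 0 • ell D)
    (h2 : act g (ell D) = M 0 1 • D.p 2 + M 1 1 • ell D) :
    Nat.card (dX D (g • ω)) = Nat.card (dX D ω) := by
  have hinv : ∀ t : dX D (g • ω), Quad.cg q M⁻¹ t.1 ∈ dX D ω := fun t => by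
    have := Quad.cg_inv D.hF M⁻¹ t.2.1
    rw [inv_inv] at this
    refine (dX_conj D ω M h1 h2 (Quad.cg_mem D.hF M⁻¹ t.2.1)).mp ?_
    rw [this]; exact t.2
  exact (Nat.card_congr
    { toFun := fun t => ⟨Quad.cg q M t.1, (dX_conj D ω M h1 h2 t.2.1).mpr t.2⟩
      invFun := fun t => ⟨Quad.cg q M⁻¹ t.1, hinv t⟩
      left_inv := fun t => Subtype.ext (Quad.cg_inv D.hF M t.2.1)
      right_inv := fun t => Subtype.ext (by
        have := Quad.cg_inv D.hF M⁻¹ t.2.1
        rwa [inv_inv] at this) }).symm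

omit D in
/-- A common divisor of the orbit sizes divides the size of the set. -/
theorem dvd_card_of_orbits {G : Type*} [Group G] {Ω' : Type*} [MulAction G Ω'] [Finite Ω']
    (d : ℕ) (h : ∀ ω : Ω', d ∣ Nat.card (orbit G ω)) : d ∣ Nat.card Ω' := by
  classical
  have := Fintype.ofFinite (orbitRel.Quotient G Ω')
  rw [Nat.card_congr (MulAction.selfEquivSigmaOrbits G Ω'), Nat.card_sigma]
  exact Finset.dvd_sum fun x _ => h _

variable [Finite Ω]

/-- The orbit sum of the numbers of fixed matrices. -/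
theorem dvd_sum_dX [Fintype Ω] : q ^ 4 ∣ ∑ ω : Ω, Nat.card (dX D ω) := by
  classical
  rw [← Finset.sum_fiberwise (s := Finset.univ) (g := fun ω : Ω => orbit (xHom D).range ω)]
  refine Finset.dvd_sum fun O _ => ?_
  rcases (Finset.univ.filter fun ω : Ω => orbit (xHom D).range ω = O).eq_empty_or_nonempty with he | ⟨w, hw⟩
  · rw [he]; simp
  have hO : orbit (xHom D).range w = O := (Finset.mem_filter.mp hw).2
  have hconst : ∀ x ∈ Finset.univ.filter (fun ω : Ω => orbit (xHom D).range ω = O),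
      Nat.card (dX D x) = Nat.card (dX D w) := by
    intro x hx
    have : x ∈ orbit (xHom D).range w := hO ▸ (Finset.mem_filter.mp hx).2 ▸ mem_orbit_self x
    obtain ⟨g, rfl⟩ := this
    show Nat.card (dX D (g.1 • w)) = _
    rw [dX_smul_X D w g.2]
  rw [Finset.sum_congr rfl hconst, Finset.sum_const, smul_eq_mul]
  refine dvd_of_eq ?_
  rw [← card_orbit_X D w, Nat.card_coe_set_eq, ← Set.ncard_coe_finset]
  congr 2
  ext x
  simp only [Finset.coe_filter, Finset.mem_univ, true_and, Set.mem_setOf_eq, ← hO, orbit_eq_iff]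

omit [Finite Ω] in
include D in
/-- Congruent matrices have equally many fixed points. -/
theorem card_fix_eq {s t : F × F × F} (hs : s ∈ Quad.SK D.hF) (ht : t ∈ Quad.SK D.hF)
    (h0 : Quad.det2 q s ≠ 0) (h : Quad.det2 q s = Quad.det2 q t) :
    Nat.card {ω : Ω // s ∈ dX D ω} = Nat.card {ω : Ω // t ∈ dX D ω} := by
  obtain ⟨M, rfl⟩ := Quad.exists_cg_eq D.hF hs ht h0 h
  obtain ⟨g, g1, g2⟩ := exists_on_line D M
  refine Nat.card_congr (Equiv.subtypeEquiv (MulAction.toPerm g) fun ω => ?_)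
  exact (dX_conj D ω M g1 g2 hs).symm

include D in
/-- The index of a subgroup of `SU 4` is at least the number of totally isotropic lines. -/
theorem four_bound [IsPretransitive (Cfsg.SU (2 + 2) F q) Ω] (hN2 : 2 ≤ Nat.card Ω) :
    L4 q ≤ Nat.card Ω := by
  classical
  by_contra hlt
  push Not at hlt
  have hF := D.hF
  have hq := H3.two_le_q hF
  obtain ⟨hfree, hbig⟩ := four_free D hlt hN2
  obtain ⟨p, f, hp, hc, -, hpq⟩ := H3.exists_q_eq_pow hF
  haveI := Fact.mk hp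
  have hmoved : ∀ ω : Ω, ω ∉ fixT D 2 Ω := by
    intro ω hω
    obtain ⟨a, ha0, ha⟩ := H3.exists_trace_zero_ne_zero hF
    exact hfree (D.p 2) a ω D.p_ne D.p_iso ha ha0 (mem_fixT.mp hω a ha)
  have hN : Nat.card Ω = q ^ 4 + q ^ 3 := by
    have hdvd : q ^ 3 ∣ Nat.card Ω := by
      refine dvd_card_of_orbits (G := Qg D 2) _ fun ω => ?_
      have e := card_orbit_Q (D := D) (m := 2) ω
      rw [(moved_four hlt (hmoved ω)).1, AddSubgroup.card_bot, one_mul,
        show 2 * 2 + 1 = 5 from rfl] at e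
      have hA := card_aS_le D ω (hmoved ω)
      have hd2 : Nat.card (aS 2 D ω) ∣ q ^ 2 := by
        have h5 : Nat.card (aS 2 D ω) ∣ p ^ (f * 5) := by
          rw [pow_mul, ← hpq, ← e]; exact dvd_mul_left _ _
        obtain ⟨j, -, hj⟩ := (Nat.dvd_prime_pow hp).mp h5
        rw [hj, hpq, ← pow_mul] at hA ⊢
        exact pow_dvd_pow p ((Nat.pow_le_pow_iff_right hp.one_lt).mp hA)
      obtain ⟨c, hc⟩ := hd2
      refine ⟨c, ?_⟩
      have h5 : q ^ 5 = q ^ 3 * q ^ 2 := by ring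
      rw [h5, hc] at e
      refine Nat.eq_of_mul_eq_mul_right (Nat.card_pos (α := aS 2 D ω)) (e.trans ?_)
      ring
    obtain ⟨y, hy⟩ := hdvd
    rw [L4_eq] at hlt
    rw [hy] at hlt hbig
    have hy1 : q + 1 ≤ y := Nat.le_of_mul_le_mul_left (by rw [mul_comm (q ^ 3) (q + 1)]; exact hbig)
      (Nat.pow_pos (by omega))
    rcases hy1.lt_or_eq with h | h
    · have h2 : q ^ 3 * (q + 2) ≤ q ^ 3 * y := Nat.mul_le_mul_left _ h
      have h3 : q * 4 ≤ q ^ 3 := by
        rw [pow_succ' q 2]; exact Nat.mul_le_mul_left _ (Nat.pow_le_pow_left hq 2)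
      have h4 : q ^ 3 * (q + 2) = q ^ 4 + 2 * q ^ 3 := by ring
      omega
    · rw [hy, ← h]; ring
  have := Fintype.ofFinite Ω
  set d : Ω → ℕ := fun ω => Nat.card (dX D ω) with hd
  have hd1 : ∀ ω, 1 ≤ d ω := fun ω => Nat.card_pos
  have hd2 : ∀ ω, d ω ≤ q ^ 2 := fun ω =>
    Quad.card_le_of_anisotropic hF (dX D ω) (fun t ht => ht.1) fun t ht h0 => by
      by_contra hne
      obtain ⟨v, a, hv0, hv, ha, ha0, e⟩ := uH_singular hF D.p_iso (p_ell D) (ell_iso D)
        D.p_p' (D.p_up D.e') (by rw [ell, D.form_up]; exact D.pair) ht.1 h0 hne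
      exact hfree v a ω hv0 hv ha ha0 (e ▸ ht.2)
  -- counting by classes
  have hcount : ∃ s : ℕ, (∑ ω, d ω) = Nat.card Ω + (q ^ 3 + q) * s := by
    let T : Finset (F × F × F) := Finset.univ.filter fun t => t ∈ Quad.SK hF
    have e1 : ∀ ω, d ω = (T.filter fun t => t ∈ dX D ω).card := by
      intro ω
      rw [hd, ← Nat.card_eq_finsetCard]
      refine Nat.card_congr (Equiv.subtypeEquivRight fun t => ?_)
      simp only [T, Finset.mem_filter, Finset.mem_univ, true_and]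
      exact ⟨fun h => ⟨h.1, h⟩, fun h => h.2⟩
    have e2 : (∑ ω, d ω) = ∑ t ∈ T, Nat.card {ω : Ω // t ∈ dX D ω} := by
      simp only [e1, Finset.card_filter]
      rw [Finset.sum_comm]
      refine Finset.sum_congr rfl fun t _ => ?_
      rw [← Finset.card_filter, Nat.card_eq_fintype_card, Fintype.card_subtype]
    have h0T : (0 : F × F × F) ∈ T := by simp [T, (Quad.SK hF).zero_mem]
    rw [e2, ← Finset.add_sum_erase _ _ h0T,
      show Nat.card {ω : Ω // (0 : F × F × F) ∈ dX D ω} = Nat.card Ω from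
        Nat.card_congr (Equiv.subtypeUnivEquiv fun ω => (dX D ω).zero_mem),
      ← Finset.sum_fiberwise (s := T.erase 0) (g := fun t => Quad.det2 q t)]
    obtain ⟨s, hs⟩ : q ^ 3 + q ∣ ∑ c : F, ∑ t ∈ (T.erase 0).filter (fun t => Quad.det2 q t = c),
        Nat.card {ω : Ω // t ∈ dX D ω} := by
      refine Finset.dvd_sum fun c _ => ?_
      rcases ((T.erase 0).filter fun t => Quad.det2 q t = c).eq_empty_or_nonempty with he | ⟨t₀, ht₀⟩
      · rw [he]; simp
      simp only [Finset.mem_filter, Finset.mem_erase, T, Finset.mem_univ, true_and] at ht₀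
      by_cases hc0 : c = 0
      · rw [Finset.sum_eq_zero fun t ht => ?_]
        · exact dvd_zero _
        · simp only [Finset.mem_filter, Finset.mem_erase, T, Finset.mem_univ, true_and] at ht
          rw [Nat.card_eq_zero]
          refine Or.inl ⟨fun w => ?_⟩
          obtain ⟨v, a, hv0, hv, ha, ha0, e⟩ := uH_singular hF D.p_iso (p_ell D) (ell_iso D)
            D.p_p' (D.p_up D.e') (by rw [ell, D.form_up]; exact D.pair) ht.1.2 (ht.2.trans hc0) ht.1.1
          exact hfree v a w.1 hv0 hv ha ha0 (e ▸ w.2.2)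
      · have hcc : c ^ q = c := by rw [← ht₀.2]; exact Quad.det2_real hF ht₀.1.2
        rw [Finset.sum_congr rfl (g := fun _ => Nat.card {ω : Ω // t₀ ∈ dX D ω}) fun t ht => ?_,
          Finset.sum_const, smul_eq_mul]
        · refine dvd_mul_of_dvd_left (dvd_of_eq ?_) _
          rw [← Quad.card_class hF hcc hc0, ← Set.ncard_coe_finset]
          congr 1
          ext t
          simp only [Finset.coe_filter, Finset.mem_erase, T, Finset.mem_filter, Finset.mem_univ,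
            true_and, Set.mem_setOf_eq]
          exact ⟨fun h => ⟨⟨fun e => hc0 (by rw [← h.2, e]; simp [Quad.det2]), h.1⟩, h.2⟩,
            fun h => ⟨h.1.2, h.2⟩⟩
        · simp only [Finset.mem_filter, Finset.mem_erase, T, Finset.mem_univ, true_and] at ht
          exact card_fix_eq D ht.1.2 ht₀.1.2 (ht.2 ▸ hc0) (ht.2.trans ht₀.2.symm)
    exact ⟨s, by rw [hs]⟩
  obtain ⟨s, hs⟩ := hcount
  obtain ⟨O, hO⟩ := dvd_sum_dX D (Ω := Ω)
  change (∑ ω, d ω) = _ at hO
  by_cases hall : ∀ ω, d ω = q ^ 2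
  · rw [Finset.sum_congr rfl fun ω _ => hall ω, Finset.sum_const, Finset.card_univ, smul_eq_mul,
      ← Nat.card_eq_fintype_card, hN] at hs
    zify at hs
    have h1 : (((q : ℤ) ^ 2 + 1) : ℤ) ∣ (2 * ((q : ℤ) + 1) : ℤ) := by
      refine ⟨(s : ℤ) - ((q : ℤ) + 1) * ((q : ℤ) ^ 2 - 2), ?_⟩
      have h2 : (q : ℤ) ^ 2 * ((q + 1) * (q ^ 2 - 1)) = (q ^ 2 + 1) * s := by
        refine mul_left_cancel₀ (show (q : ℤ) ≠ 0 by exact_mod_cast (q_ne_zero hF)) ?_
        linear_combination hs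
      linear_combination h2
    have h2 := Int.le_of_dvd (by positivity) h1
    have hq2 : (q : ℤ) ≤ 2 := by nlinarith
    obtain rfl : q = 2 := by omega
    norm_num at h1
  push Not at hall
  obtain ⟨ω₀, hω₀⟩ := hall
  have hω₀' : 2 * d ω₀ ≤ q ^ 2 := by
    have h4 : d ω₀ ∣ p ^ (f * 4) := by
      rw [pow_mul, ← hpq, ← card_orbit_X D ω₀]; exact dvd_mul_left _ _
    obtain ⟨j, -, hj⟩ := (Nat.dvd_prime_pow hp).mp h4
    have h2 := hd2 ω₀
    rw [hj, hpq, ← pow_mul] at h2 hω₀ ⊢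
    have hjlt : j < f * 2 := lt_of_le_of_ne ((Nat.pow_le_pow_iff_right hp.one_lt).mp h2)
      fun e => hω₀ (by rw [e])
    calc 2 * p ^ j ≤ p * p ^ j := Nat.mul_le_mul_right _ hp.two_le
      _ = p ^ (j + 1) := (pow_succ' _ _).symm
      _ ≤ _ := Nat.pow_le_pow_right hp.pos hjlt
  set Tset := {ω : Ω | d ω = d ω₀} with hTset
  set o := Nat.card (orbit (xHom D).range ω₀) with ho
  have horb : o * d ω₀ = q ^ 4 := card_orbit_X D ω₀
  set I := (fun g : Cfsg.SU (2 + 2) F q => dX D (g • ω₀)) '' {g | ∃ M : SL(2, F),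
    act g (D.p 2) = M 0 0 • D.p 2 + M 1 0 • ell D ∧
    act g (ell D) = M 0 1 • D.p 2 + M 1 1 • ell D} with hI
  have hIfin : I.Finite := by
    have : Finite (AddSubgroup (F × F × F)) := Finite.of_injective _ SetLike.coe_injective
    exact Set.toFinite _
  have hfam : I.ncard * o ≤ Tset.ncard := by
    refine family_bound (xHom D).range (fun w : Ω => dX D w) (fun g hg w => dX_smul_X D w hg) Tset
      (fun g hg w hw => ?_) I hIfin o ?_
    · show Nat.card (dX D (g • w)) = _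
      rw [dX_smul_X D w hg]; exact hw
    rintro _ ⟨g, ⟨M, g1, g2⟩, rfl⟩
    have e := card_dX_conj D ω₀ M g1 g2
    refine ⟨g • ω₀, e, rfl, le_of_eq ?_⟩
    have h := card_orbit_X D (g • ω₀)
    rw [e, ← horb] at h
    exact (Nat.eq_of_mul_eq_mul_right (hd1 ω₀) h).symm
  have hdef : Tset.ncard * (q ^ 2 - d ω₀) + (∑ ω, d ω) ≤ Nat.card Ω * q ^ 2 := by
    have e1 : ∀ ω, (if d ω = d ω₀ then q ^ 2 - d ω₀ else 0) + d ω ≤ q ^ 2 := fun ω => by
      have := hd2 ω
      split_ifs with h <;> omega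
    have e2 : Tset.ncard = (Finset.univ.filter fun ω => d ω = d ω₀).card := by
      rw [← Set.ncard_coe_finset]; congr 1; ext ω; simp [hTset]
    have e3 := Finset.sum_le_sum (s := Finset.univ) fun ω _ => e1 ω
    rw [Finset.sum_add_distrib, ← Finset.sum_filter, Finset.sum_const, Finset.sum_const, ← e2,
      smul_eq_mul, smul_eq_mul, Finset.card_univ, ← Nat.card_eq_fintype_card] at e3
    exact e3
  have ha := hd1 ω₀
  set a := d ω₀
  set T' := Tset.ncard
  set S := ∑ ω, d ω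
  have hq4 : 4 ≤ q ^ 2 := Nat.pow_le_pow_left hq 2
  -- the deficit is small
  have hO' : q ^ 2 - q + 2 ≤ O := by
    rw [hN] at hs
    have e : q ^ 4 * O = q ^ 4 + q ^ 3 + (q ^ 3 + q) * s := by rw [← hO, hs]
    zify at e
    have hqz : (q : ℤ) ≠ 0 := by exact_mod_cast (q_ne_zero hF)
    obtain ⟨s', hs'⟩ : (q : ℤ) ^ 2 ∣ s :=
      ⟨(q : ℤ) * O - q - 1 - s, by
        refine mul_left_cancel₀ hqz ?_
        linear_combination -e⟩
    have e' : ((q : ℤ) ^ 2 + 1) * s' + q + 1 = q * O := by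
      refine mul_left_cancel₀ (pow_ne_zero 3 hqz) ?_
      linear_combination -e - ((q : ℤ) ^ 3 + q) * hs'
    obtain ⟨t, ht⟩ : (q : ℤ) ∣ s' + 1 := ⟨(O : ℤ) - q * s' - 1, by linear_combination e'⟩
    have hs0 : 0 ≤ s' := by
      by_contra hneg
      push Not at hneg
      have : (q : ℤ) ^ 2 * s' < 0 := mul_neg_of_pos_of_neg (by positivity) hneg
      have : (0 : ℤ) ≤ s := Int.natCast_nonneg s
      linarith
    have ht1 : 1 ≤ t := by
      by_contra hneg
      push Not at hneg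
      have : (q : ℤ) * t ≤ 0 := mul_nonpos_of_nonneg_of_nonpos (by positivity) (by linarith)
      linarith
    have hOe : (O : ℤ) = ((q : ℤ) ^ 2 + 1) * t - q + 1 := by
      refine mul_left_cancel₀ hqz ?_
      linear_combination -e' + ((q : ℤ) ^ 2 + 1) * ht
    zify [Nat.le_self_pow (by norm_num : (2 : ℕ) ≠ 0) q]
    nlinarith
  rw [hN] at hdef
  rw [hO] at hdef
  have hsmall : T' * (q ^ 2 - a) + 2 * q ^ 4 ≤ 2 * q ^ 5 := by
    have h1 : q ^ 4 * (q ^ 2 - q + 2) ≤ q ^ 4 * O := Nat.mul_le_mul_left _ hO'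
    have h2 : q ^ 4 * (q ^ 2 - q + 2) + q ^ 5 = q ^ 6 + 2 * q ^ 4 := by
      have : q ≤ q ^ 2 := Nat.le_self_pow (by norm_num) q
      zify [this]; ring
    have h3 : (q ^ 4 + q ^ 3) * q ^ 2 = q ^ 6 + q ^ 5 := by ring
    omega
  by_cases hbot : dX D ω₀ = ⊥
  · have ha1 : a = 1 := by show Nat.card (dX D ω₀) = 1; rw [hbot, AddSubgroup.card_bot]
    rw [ha1] at hsmall horb
    rw [mul_one] at horb
    have hI1 : 1 ≤ I.ncard :=
      (Set.ncard_pos hIfin).mpr ⟨_, ⟨1, ⟨1, by simp [act_one], by simp [act_one]⟩, rfl⟩⟩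
    have h1 : q ^ 4 ≤ T' := by rw [← horb]; exact (Nat.le_mul_of_pos_left _ hI1).trans hfam
    have h2 := Nat.mul_le_mul_right (q ^ 2 - 1) h1
    have h3 : q ^ 4 * (q ^ 2 - 1) + q ^ 4 = q ^ 6 := by
      zify [show 1 ≤ q ^ 2 by omega]; ring
    have h4 : 2 * q ^ 5 < q ^ 6 + q ^ 4 := by
      have : 2 * q ^ 5 ≤ q ^ 6 := by rw [pow_succ' q 5]; exact Nat.mul_le_mul_right _ hq
      have : 0 < q ^ 4 := Nat.pow_pos (by omega)
      omega
    omega
  -- the translates cover a class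
  obtain ⟨t₀, ht₀, ht₀0⟩ : ∃ t ∈ dX D ω₀, t ≠ 0 := by
    by_contra h; push Not at h; exact hbot (eq_bot_iff.mpr fun t ht => by simp [h t ht])
  have hdet : Quad.det2 q t₀ ≠ 0 := fun h0 => by
    obtain ⟨v, b, hv0, hv, hb, hb0, e⟩ := uH_singular hF D.p_iso (p_ell D) (ell_iso D)
      D.p_p' (D.p_up D.e') (by rw [ell, D.form_up]; exact D.pair) ht₀.1 h0 ht₀0
    exact hfree v b ω₀ hv0 hv hb hb0 (e ▸ ht₀.2)
  have hk : q ^ 3 + q ≤ I.ncard * a := by
    rw [← Quad.card_class hF (Quad.det2_real hF ht₀.1) hdet]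
    have := hIfin.fintype
    have hsub : {t : F × F × F | t ∈ Quad.SK hF ∧ Quad.det2 q t = Quad.det2 q t₀} ⊆
        ⋃ B ∈ I, (B : Set (F × F × F)) := by
      rintro t ⟨ht, htd⟩
      obtain ⟨M, hM⟩ := Quad.exists_cg_eq hF ht₀.1 ht hdet htd.symm
      obtain ⟨g, g1, g2⟩ := exists_on_line D M
      refine Set.mem_biUnion (x := dX D (g • ω₀)) ⟨g, ⟨M, g1, g2⟩, rfl⟩ ?_
      rw [← hM]
      exact (dX_conj D ω₀ M g1 g2 ht₀.1).mpr ht₀
    refine (Set.ncard_le_ncard hsub (Set.toFinite _)).trans ?_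
    have hJ : (⋃ B ∈ I, (B : Set (F × F × F))) =
        ⋃ B ∈ hIfin.toFinset, (B : Set (F × F × F)) := by simp
    rw [hJ]
    refine (Finset.set_ncard_biUnion_le _ _).trans ?_
    rw [Set.ncard_eq_toFinset_card I hIfin, ← smul_eq_mul, ← Finset.sum_const]
    refine Finset.sum_le_sum fun B hB => ?_
    obtain ⟨g, ⟨M, g1, g2⟩, rfl⟩ := hIfin.mem_toFinset.mp hB
    rw [← Nat.card_coe_set_eq]
    exact le_of_eq (card_dX_conj D ω₀ M g1 g2)
  zify [show a ≤ q ^ 2 from hd2 ω₀] at hsmall hω₀' hk hfam horb ha hq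
  have h1 : ((q : ℤ) ^ 3 + q) * q ^ 4 ≤ T' * (a * a) := by
    calc ((q : ℤ) ^ 3 + q) * q ^ 4 ≤ (I.ncard * a) * q ^ 4 :=
          mul_le_mul_of_nonneg_right hk (by positivity)
      _ = (I.ncard * o) * (a * a) := by rw [← horb]; ring
      _ ≤ T' * (a * a) := mul_le_mul_of_nonneg_right hfam (by positivity)
  have h2 : (T' : ℤ) * q ^ 2 ≤ 2 * (2 * q ^ 5 - 2 * q ^ 4) := by
    have := mul_le_mul_of_nonneg_left hω₀' (Int.natCast_nonneg T')
    linarith
  have h3 : ((q : ℤ) ^ 3 + q) * q ^ 4 * 4 ≤ T' * q ^ 4 := by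
    refine (mul_le_mul_of_nonneg_right h1 (by norm_num)).trans ?_
    have := mul_le_mul hω₀' hω₀' (by positivity) (by positivity)
    have := mul_le_mul_of_nonneg_left this (Int.natCast_nonneg T')
    linarith
  have h4 := mul_le_mul_of_nonneg_right h2 (show (0 : ℤ) ≤ q ^ 2 by positivity)
  have h5 : (0 : ℤ) < q ^ 5 := by positivity
  nlinarith

end Cfsg.Agent.H2.MinU
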