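import Cfsg.Agent.H2.MinU.Four.PlaneBound
import Cfsg.Agent.H2.MinU.Geom

/-!
A small action of `SU 4` has no transvection with a fixed point.
-/

set_option autoImplicit false

namespace Cfsg.Agent.H2.MinU

open Matrix MulAction
open scoped Pointwise

variable {F : Type*} [Field F] [Fintype F] {q m : ℕ}

local notation "⟪" u ", " v "⟫" => Cfsg.hermForm _ F q u v

/-- The number of totally isotropic lines in dimension four. -/
def L4 (q : ℕ) : ℕ := (q + 1) * (q ^ 3 + 1)

lemma L4_eq (q : ℕ) : L4 q = q ^ 4 + q ^ 3 + q + 1 := by rw [L4]; ring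

lemma scale_eq_iff {hF : Fintype.card F = q ^ 2} {c : F} (hc : c ≠ 0) (Z : AddSubgroup F) :
    Nat.card (scale hF c Z) = Nat.card Z :=
  (Nat.card_congr (Z.equivMapOfInjective _ (mul_right_injective₀
    (mul_ne_zero hc (pow_ne_zero _ hc)))).toEquiv).symm

lemma scale_scale (hF : Fintype.card F = q ^ 2) (c d : F) (Z : AddSubgroup F) :
    scale hF c (scale hF d Z) = scale hF (c * d) Z := by
  rw [scale, scale, scale, AddSubgroup.map_map]
  congr 1
  ext a
  simp only [AddMonoidHom.coe_comp, Function.comp_apply, AddMonoidHom.coe_mulLeft]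
  rw [mul_pow]; ring

lemma scale_norm_one (hF : Fintype.card F = q ^ 2) {c : F} (hc : c ^ (q + 1) = 1) (Z : AddSubgroup F) :
    scale hF c Z = Z := by
  ext a
  simp only [scale, AddSubgroup.mem_map, AddMonoidHom.coe_mulLeft, ← pow_succ', hc, one_mul,
    exists_eq_right]

lemma scale_zero_group (hF : Fintype.card F = q ^ 2) (c : F) :
    scale hF c (⊥ : AddSubgroup F) = ⊥ := AddSubgroup.map_bot _

variable {D : Dat F q} {Ω : Type*} [MulAction (Cfsg.SU (2 + m) F q) Ω] [Finite Ω]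

/-- Moved points counted by the invariants along a set of Levi elements. -/
theorem moved_family {ω : Ω} (hω : ω ∉ fixT D m Ω) (Gs : Set (Lev D m)) :
    ((fun g : Lev D m => (scale D.hF (cc g) (zS m D ω), g • aS m D ω)) '' Gs).ncard *
        q ^ (2 * m + 1) ≤
      ((fixT D m Ω)ᶜ).ncard * (Nat.card (zS m D ω) * Nat.card (aS m D ω)) := by
  classical
  have : Finite (AddSubgroup F) := Finite.of_injective _ SetLike.coe_injective
  have : Finite (AddSubgroup (Fin m → F)) := Finite.of_injective _ SetLike.coe_injective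
  set z := Nat.card (zS m D ω) * Nat.card (aS m D ω) with hz
  have hzpos : 0 < z := Nat.mul_pos Nat.card_pos Nat.card_pos
  set o := Nat.card (orbit (Qg D m) ω) with ho
  have horb : o * z = q ^ (2 * m + 1) := card_orbit_Q ω
  have key := family_bound (Qg D m) (fun w : Ω => (zS m D w, aS m D w))
    (fun x hx w => by rw [zS_smul_Q _ hx, aS_smul_Q _ hx]) ((fixT D m Ω)ᶜ)
    (fun g hg w hw => fun h => hw (show zS m D w = skew D.hF from (zS_smul_Q w hg).symm.trans h))
    ((fun g : Lev D m => (scale D.hF (cc g) (zS m D ω), g • aS m D ω)) '' Gs) (Set.toFinite _) o ?_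
  · rw [← horb, ← mul_assoc]
    exact Nat.mul_le_mul_right _ key
  rintro _ ⟨g, -, rfl⟩
  have e := card_orbit_Q (D := D) (m := m) (g.1 • ω)
  rw [zS_lev, aS_lev, scale_eq_iff (cc_ne g), card_smul_addSubgroup, ← hz, ← horb] at e
  refine ⟨g.1 • ω, fun h => hω ?_, Prod.ext (zS_lev ω g) (aS_lev ω g),
    le_of_eq (Nat.eq_of_mul_eq_mul_right hzpos e).symm⟩
  have h' : scale D.hF (cc g) (zS m D ω) = skew D.hF := (zS_lev ω g).symm.trans h
  show zS m D ω = skew D.hF
  refine AddSubgroup.eq_of_le_of_card_ge (zS_le ω) ?_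
  rw [← h', scale_eq_iff (cc_ne g)]

/-- A moved point of a small action: its transvection stabiliser is trivial. -/
theorem moved_four {Ω : Type*} [MulAction (Cfsg.SU (2 + 2) F q) Ω] [Finite Ω]
    (hN : Nat.card Ω < L4 q) {ω : Ω} (hω : ω ∉ fixT D 2 Ω) :
    zS 2 D ω = ⊥ ∧ (q + 1) * q ^ 3 ≤ ((fixT D 2 Ω)ᶜ).ncard := by
  classical
  have hF := D.hF
  have : Finite (AddSubgroup F) := Finite.of_injective _ SetLike.coe_injective
  have : Finite (AddSubgroup (Fin 2 → F)) := Finite.of_injective _ SetLike.coe_injective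
  have hq := H3.two_le_q hF
  have hZ : zS 2 D ω ≠ skew D.hF := hω
  have hS : ((fixT D 2 Ω)ᶜ).ncard ≤ Nat.card Ω := Set.ncard_le_card _
  rw [L4_eq] at hN
  set A := aS 2 D ω with hAdef
  set Z := zS 2 D ω with hZdef
  have hall := moved_family (D := D) (m := 2) hω Set.univ
  rw [Set.image_univ, ← hAdef, ← hZdef, show 2 * 2 + 1 = 5 from rfl] at hall
  set S := ((fixT D 2 Ω)ᶜ).ncard
  set K := (Set.range fun g : Lev D 2 => (scale D.hF (cc g) Z, g • A)).ncard with hK
  have hzc : 1 ≤ Nat.card Z := Nat.card_pos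
  have hKs : (scales hF Z).ncard ≤ K := by
    refine le_trans (Set.ncard_le_ncard ?_ (Set.toFinite _)) (Set.ncard_image_le (f := Prod.fst) (Set.toFinite _))
    rintro _ ⟨c, rfl⟩
    obtain ⟨g, hg⟩ := exists_levL_scalar D (m := 2) (by norm_num) c.ne_zero
    exact ⟨_, ⟨g, rfl⟩, by show scale D.hF (cc g) Z = scale hF (c : F) Z; rw [hg]⟩
  have h5 : q ^ 5 = q * q ^ 4 := pow_succ' q 4
  have h34 : q + 1 ≤ q ^ 3 := by
    have : q * 4 ≤ q ^ 3 := by rw [pow_succ' q 2]; exact Nat.mul_le_mul_left _ (Nat.pow_le_pow_left hq 2)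
    omega
  have h44 : q ^ 4 = q * q ^ 3 := pow_succ' q 3
  have hA0 : A ≠ ⊥ := by
    intro hA0
    rw [hA0, AddSubgroup.card_bot, mul_one] at hall
    have hKZ : Nat.card Z ≤ K := by
      by_cases h0 : Z = ⊥
      · rw [h0, AddSubgroup.card_bot]; exact le_trans (scales_nonempty hF _) hKs
      · exact le_trans (le_trans (Nat.le_succ _) (card_scales hF Z (zS_le ω) h0 hZ).1) hKs
    have h := (Nat.mul_le_mul_right _ hKZ).trans (hall.trans (Nat.mul_le_mul_right _ hS))
    rw [mul_comm] at h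
    have h' : q ^ 5 ≤ Nat.card Ω := Nat.le_of_mul_le_mul_right h (by omega)
    have : 2 * q ^ 4 ≤ q * q ^ 4 := Nat.mul_le_mul_right _ hq
    have : 2 * q ^ 3 ≤ q * q ^ 3 := Nat.mul_le_mul_right _ hq
    omega
  obtain ⟨hb1, hb2⟩ := plane_bound (D := D) A hA0 (card_aS_le D ω hZ) Z (zS_le ω) hZ
    fun v hv w hw => comm_mem_zS D ω hv hw
  have ha : 1 ≤ Nat.card A := Nat.card_pos
  have hZ0 : Z = ⊥ := by
    by_contra h0
    obtain ⟨hs1, hs2⟩ := card_scales hF Z (zS_le ω) h0 hZ
    choose τ hτ using fun c : Fˣ => exists_levL_scalar D (m := 2) (by norm_num) c.ne_zero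
    have hc : ∀ S : scales hF Z, ∃ c : Fˣ, scale hF (c : F) Z = S.1 := fun S => S.2
    choose cs hcs using hc
    have hprod : (scales hF Z).ncard * Nat.card (orbit (LevN D 2) A) ≤ K := by
      rw [← Nat.card_coe_set_eq (scales hF Z), ← Nat.card_prod, hK, ← Nat.card_coe_set_eq]
      have hmem : ∀ p : scales hF Z × orbit (LevN D 2) A,
          (p.1.1, τ (cs p.1) • p.2.1) ∈ Set.range fun g : Lev D 2 => (scale D.hF (cc g) Z, g • A) := by
        rintro ⟨T, B⟩
        obtain ⟨g, hg⟩ := B.2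
        refine ⟨τ (cs T) * g.1, Prod.ext ?_ ?_⟩
        · show scale D.hF (cc (τ (cs T) * g.1)) Z = T.1
          rw [cc_mul, hτ, ← scale_scale, scale_norm_one D.hF g.2, hcs]
        · show (τ (cs T) * g.1) • A = τ (cs T) • B.1
          rw [mul_smul, ← hg]; rfl
      refine Nat.card_le_card_of_injective (Set.codRestrict _ _ hmem) ?_
      rintro ⟨T, B⟩ ⟨T', B'⟩ h
      obtain ⟨h1, h2⟩ := Prod.ext_iff.mp (congrArg Subtype.val h)
      obtain rfl : T = T' := Subtype.ext h1
      exact Prod.ext rfl (Subtype.ext (smul_left_cancel _ h2))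
    set kN := Nat.card (orbit (LevN D 2) A)
    set a := Nat.card A
    set z := Nat.card Z
    have h : (z + 1) * kN * (q * q ^ 4) ≤ Nat.card Ω * (z * a) := by
      rw [← h5]
      exact ((Nat.mul_le_mul_right _ ((Nat.mul_le_mul_right _ hs1).trans hprod)).trans hall).trans
        (Nat.mul_le_mul_right _ hS)
    have h' : (z + 1) * q ^ 4 * a ≤ Nat.card Ω * z * a :=
      calc (z + 1) * q ^ 4 * a ≤ (z + 1) * q ^ 4 * (kN * q) := Nat.mul_le_mul_left _ hb1
        _ = (z + 1) * kN * (q * q ^ 4) := by ring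
        _ ≤ _ := by rw [mul_assoc (Nat.card Ω)]; exact h
    have h'' := Nat.le_of_mul_le_mul_right h' (by omega)
    have h3 : z * (q + 1) ≤ z * q ^ 3 := Nat.mul_le_mul_left _ h34
    have h4 : 2 * z * q ^ 3 ≤ q * q ^ 3 := Nat.mul_le_mul_right _ hs2
    have h6 : Nat.card Ω * z < (q ^ 4 + q ^ 3 + q + 1) * z := Nat.mul_lt_mul_of_pos_right hN (by omega)
    nlinarith
  refine ⟨hZ0, ?_⟩
  have hKk : Nat.card (orbit (Lev D 2) A) ≤ K := by
    rw [Nat.card_coe_set_eq]
    refine le_trans (Set.ncard_le_ncard ?_ (Set.toFinite _)) (Set.ncard_image_le (f := Prod.snd) (Set.toFinite _))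
    rintro _ ⟨g, rfl⟩
    exact ⟨_, ⟨g, rfl⟩, rfl⟩
  rw [hZ0, AddSubgroup.card_bot, one_mul] at hall
  refine Nat.le_of_mul_le_mul_right ?_ (show 0 < Nat.card A from ha)
  calc (q + 1) * q ^ 3 * Nat.card A = (q + 1) * Nat.card A * q ^ 3 := by ring
    _ ≤ Nat.card (orbit (Lev D 2) A) * q ^ 2 * q ^ 3 := Nat.mul_le_mul_right _ (hb2 hZ0)
    _ = Nat.card (orbit (Lev D 2) A) * q ^ 5 := by ring
    _ ≤ _ := (Nat.mul_le_mul_right _ hKk).trans hall

/-- In a small action of `SU 4` no transvection fixes a point. -/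
theorem four_free {Ω : Type*} [MulAction (Cfsg.SU (2 + 2) F q) Ω] [Finite Ω]
    [IsPretransitive (Cfsg.SU (2 + 2) F q) Ω] (D : Dat F q) (hN : Nat.card Ω < L4 q)
    (hN2 : 2 ≤ Nat.card Ω) :
    (∀ (v : Fin (2 + 2) → F) (a : F) (w : Ω), v ≠ 0 → ⟪v, v⟫ = 0 → a + a ^ q = 0 → a ≠ 0 →
      E D.hF v 0 a • w ≠ w) ∧ (q + 1) * q ^ 3 ≤ Nat.card Ω := by
  classical
  have hF := D.hF
  have hq := H3.two_le_q hF
  have hgeom : ∀ (p : Fin (2 + 2) → F) (ω : Ω), ¬ AllFix D.hF p ω := fun p ω hp => by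
    have := geom_bound (D := D) (m := 2) le_rfl (M := q + 1) (R := L4 q) (fun A h0 hiso hcl => by
        obtain ⟨v, hvA, hv0⟩ : ∃ v ∈ A, v ≠ 0 := by
          by_contra h; push Not at h; exact h0 (eq_bot_iff.mpr fun v hv => by simp [h v hv])
        have hline : ∀ x ∈ A, ∃ c : F, x = c • v := by
          intro x hx
          refine line_of_iso hF hv0 (hiso v hvA) ?_
          obtain ⟨c, hc⟩ : ∃ c : F, c + c ^ q ≠ 0 := by
            obtain ⟨s, hs⟩ := H3.exists_trace_eq hF (a := (1 : F)) (one_pow q)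
            exact ⟨s, by rw [hs]; exact one_ne_zero⟩
          by_contra hne
          have e := hiso _ (A.add_mem hvA (hcl x hx ((c / ⟪v, x⟫) ^ q)))
          rw [hadd_l hF, hadd_r hF, hadd_r hF, hsmul_l hF, hsmul_l hF, hsmul_r hF, hsmul_r hF,
            hiso v hvA, hiso x hx, ← hswap hF v x, qq hF, div_mul_cancel₀ _ hne, ← mul_pow,
            div_mul_cancel₀ _ hne] at e
          exact hc (by linear_combination e)
        have key := set_le_cover (G := Cfsg.SU 2 F q) A {w : Fin 2 → F | w ≠ 0 ∧ ⟪w, w⟫ = 0}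
          (fun h => h.1 rfl) fun w hw => by
            obtain ⟨g, a, ha, hga⟩ := exists_smul_line hF hv0 (hiso v hvA) hw.1 hw.2
            refine ⟨g, ?_⟩
            have : w = g • (a⁻¹ • v) := by
              rw [smul_eq_act, act_smul, ← smul_eq_act, hga, smul_smul, inv_mul_cancel₀ ha, one_smul]
            rw [this]
            exact AddSubgroup.smul_mem_pointwise_smul _ g A (hcl v hvA _)
        rw [card_iso_two hF] at key
        have hA : Nat.card A ≤ q ^ 2 := by
          rw [← hF, ← Nat.card_eq_fintype_card]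
          choose f hf using fun x : A => hline x.1 x.2
          exact Nat.card_le_card_of_injective f fun x y h => Subtype.ext (by rw [hf x, hf y, h])
        refine Nat.le_of_mul_le_mul_right (key.trans (Nat.mul_le_mul_left _ (Nat.sub_le_sub_right hA 1))) ?_
        have := Nat.pow_le_pow_left hq 2
        omega)
      (by rw [L4, pts_four]; exact Nat.mul_le_mul_right _ (Nat.add_le_add_right (Nat.le_self_pow (by norm_num) q) 1))
      (by
        rw [L4, pts_four]
        refine le_of_eq ?_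
        have h1 : 1 ≤ q ^ 2 := Nat.one_le_pow _ _ (by omega)
        have h2 : 1 ≤ q ^ (2 + 2) := Nat.one_le_pow _ _ (by omega)
        zify [h1, h2]
        ring) hN2 hp
    omega
  obtain ⟨ω₁, hω₁⟩ : ∃ ω : Ω, ω ∉ fixT D 2 Ω := by
    by_contra h
    push Not at h
    obtain ⟨ω⟩ : Nonempty Ω := (Nat.card_pos_iff.mp (by omega)).1
    have h1 : Nat.card Ω ≤ 1 :=
      card_le_one_of_trans_fix hF (n := 2 + 2) (by omega) (by omega) ω fun v a hv0 hv ha => by
        obtain ⟨g, hg⟩ : ∃ g : Cfsg.SU (2 + 2) F q, g • D.p 2 = v := by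
          have h1 : v ∈ orbit (Cfsg.SU (2 + 2) F q) (D.p 2) := by
            rw [orbit_eq_class hF (by omega) D.p_ne (Or.inr (by omega))]
            exact ⟨hv0, hv.trans D.p_iso.symm⟩
          exact h1
        have h2 := TF.act hF D.p_iso (mem_fixT.mp (h (g⁻¹ • ω))) g
        rw [smul_inv_smul, ← smul_eq_act, hg] at h2
        exact h2 a ha
    omega
  obtain ⟨-, hbig⟩ := moved_four hN hω₁
  have hsum := Set.ncard_add_ncard_compl (fixT D 2 Ω)
  have hN' := hN
  rw [L4_eq] at hN'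
  have he : (q + 1) * q ^ 3 = q ^ 4 + q ^ 3 := by ring
  have hx : (fixT D 2 Ω).ncard ≤ q := by omega
  have hempty : fixT D 2 Ω = ∅ := by
    by_contra hne
    obtain ⟨ω, hω⟩ := Set.nonempty_iff_ne_empty.mpr hne
    have hfb := fix_bound (D := D) (m := 2) hω
    set A := aS 2 D ω with hAdef
    have : Finite (AddSubgroup (Fin 2 → F)) := Finite.of_injective _ SetLike.coe_injective
    have : Nonempty (orbit (Cfsg.SU 2 F q) A) := ⟨⟨_, mem_orbit_self _⟩⟩
    have hk1 : 1 ≤ Nat.card (orbit (Cfsg.SU 2 F q) A) := Nat.card_pos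
    have hqq : q < q ^ 2 := by
      rw [sq]; exact lt_of_lt_of_le (by omega) (Nat.mul_le_mul_right q hq)
    rcases le_or_gt (Nat.card A) (q ^ 2) with hA | hA
    · have h := (Nat.le_mul_of_pos_left _ hk1).trans (hfb.trans (Nat.mul_le_mul_left _ hA))
      rw [show q ^ (2 * 2) = q ^ 2 * q ^ 2 by ring] at h
      have := Nat.le_of_mul_le_mul_right h (Nat.pow_pos (by omega))
      omega
    obtain ⟨p, f, hp, hc, -, hpq⟩ := H3.exists_q_eq_pow hF
    haveI := Fact.mk hp
    obtain ⟨φ, hφ, -⟩ := exists_functional_at (p := p) (⊥ : AddSubgroup F) (x := (1 : F)) (by simp)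
    let ψ : F →+ ZMod p := φ.comp (AddMonoidHom.mk' (fun t : F => t + t ^ q) fun a b => by
      rw [qadd hF]; ring)
    have hψa : ∀ t, ψ t = φ (t + t ^ q) := fun t => rfl
    have hψ : ψ ≠ 0 := fun h => by
      obtain ⟨s, hs⟩ := H3.exists_trace_eq hF (a := (1 : F)) (one_pow q)
      have := DFunLike.congr_fun h s
      rw [hψa, hs] at this
      exact hφ this
    have hcard := card_annih hF ψ hψ 1 (fun t => by rw [hψa, hψa, qq hF, one_mul, add_comm]) A
    set C := annih hF ψ A with hC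
    have hWc : Nat.card (Fin 2 → F) = q ^ (2 * 2) := by simp [hF, ← pow_mul]
    have hC0 : C ≠ ⊥ := fun h => by
      rw [h, AddSubgroup.card_bot, one_mul, ← hWc] at hcard
      exact hgeom _ _ (allFix_of_aS_top hω (AddSubgroup.eq_top_of_card_eq _ hcard))
    have hkC : Nat.card (orbit (Cfsg.SU 2 F q) C) ≤ Nat.card (orbit (Cfsg.SU 2 F q) A) := by
      refine Nat.card_le_card_of_surjective
        (fun B => (⟨annih hF ψ B.1, ?_⟩ : orbit (Cfsg.SU 2 F q) C)) ?_
      · obtain ⟨g, hg⟩ := B.2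
        exact ⟨g, by simp only [← hg, hC, annih_smul]⟩
      · rintro ⟨_, g, rfl⟩
        exact ⟨⟨g • A, mem_orbit _ _⟩, Subtype.ext (annih_smul hF ψ _ g)⟩
    have hxC : Nat.card (orbit (Cfsg.SU 2 F q) C) * Nat.card C ≤ (fixT D 2 Ω).ncard := by
      refine Nat.le_of_mul_le_mul_right ?_ (Nat.card_pos (α := A))
      rw [mul_assoc, hcard]
      exact (Nat.mul_le_mul_right _ hkC).trans hfb
    obtain ⟨c, hcC, hc0⟩ : ∃ c ∈ C, c ≠ 0 := by
      by_contra h; push Not at h; exact hC0 (eq_bot_iff.mpr fun a ha => by simp [h a ha])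
    have hcov := orbit_le_cover (G := Cfsg.SU 2 F q) C hcC hc0
    have horb : q + 1 ≤ (orbit (Cfsg.SU 2 F q) c).ncard := by
      by_cases h0 : ⟪c, c⟫ = 0
      · refine Nat.le_of_mul_le_mul_right (c := q ^ 2 - 1) ?_ (by omega)
        rw [← card_iso_two hF, ← Nat.card_coe_set_eq, ← Nat.card_coe_set_eq (orbit _ c),
          show q ^ 2 - 1 = Nat.card {a : F // a ≠ 0} by
            rw [Nat.card_eq_fintype_card, Fintype.card_subtype_compl, Fintype.card_subtype_eq, hF],
          ← Nat.card_prod]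
        have hmem : ∀ p : orbit (Cfsg.SU 2 F q) c × {a : F // a ≠ 0},
            p.2.1 • p.1.1 ∈ {w : Fin 2 → F | w ≠ 0 ∧ ⟪w, w⟫ = 0} := by
          rintro ⟨⟨_, g, rfl⟩, a⟩
          refine ⟨smul_ne_zero a.2 (act_ne_zero g hc0), ?_⟩
          show ⟪a.1 • act g c, a.1 • act g c⟫ = 0
          rw [hsmul_l hF, hsmul_r hF, form_act, h0, mul_zero, mul_zero]
        refine Nat.card_le_card_of_surjective (Set.codRestrict _ _ hmem) fun w => ?_
        obtain ⟨g, a, ha, hga⟩ := exists_smul_line hF hc0 h0 w.2.1 w.2.2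
        refine ⟨(⟨g • c, mem_orbit _ _⟩, ⟨a⁻¹, inv_ne_zero ha⟩), Subtype.ext ?_⟩
        show a⁻¹ • (g • c) = w.1
        rw [hga, smul_smul, inv_mul_cancel₀ ha, one_smul]
      · rw [card_orbit_noniso hF (k := 1) le_rfl h0, if_neg (by decide), pow_one]
        have h4 := Nat.pow_le_pow_left hq 2
        calc q + 1 ≤ q * 3 := by omega
          _ ≤ q * (q ^ 2 - 1) := Nat.mul_le_mul_left _ (by omega)
    have hCpos : 1 ≤ Nat.card C := Nat.card_pos
    have := horb.trans (hcov.trans ((Nat.mul_le_mul_left _ (Nat.sub_le _ 1)).trans hxC))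
    omega
  refine ⟨fun v a w hv0 hv ha ha0 hfix => ?_, hbig.trans (Set.ncard_le_card _)⟩
  obtain ⟨g, hg⟩ : ∃ g : Cfsg.SU (2 + 2) F q, g • D.p 2 = v := by
    have h1 : v ∈ orbit (Cfsg.SU (2 + 2) F q) (D.p 2) := by
      rw [orbit_eq_class hF (by omega) D.p_ne (Or.inr (by omega))]
      exact ⟨hv0, hv.trans D.p_iso.symm⟩
    exact h1
  have hnot : g⁻¹ • w ∉ fixT D 2 Ω := by rw [hempty]; exact Set.notMem_empty _
  have hz := (moved_four hN hnot).1
  have hmem : a ∈ zS 2 D (g⁻¹ • w) := by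
    refine ⟨ha, ?_⟩
    rw [El_trans]
    have e := E_conj hF g (ok_zero D.p_iso ha hF)
    rw [act_zero, ← smul_eq_act, hg] at e
    rw [← e, mul_smul, mul_smul] at hfix
    exact eq_inv_smul_iff.mpr hfix
  rw [hz, AddSubgroup.mem_bot] at hmem
  exact ha0 hmem

end Cfsg.Agent.H2.MinU
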