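import Cfsg.Agent.H2.MinU.Step

/-!
The two-dimensional unitary space under the Levi subgroup.
-/

set_option autoImplicit false

namespace Cfsg.Agent.H2.MinU

open Matrix MulAction
open scoped Pointwise

section Cover

variable {G : Type*} [Group G] {W : Type*} [AddCommGroup W] [Finite W] [DistribMulAction G W]

/-- A set of non-zero vectors met by the translates of a subgroup bounds their number. -/
theorem set_le_cover (A : AddSubgroup W) (S : Set W) (h0 : (0 : W) ∉ S)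
    (h : ∀ s ∈ S, ∃ g : G, s ∈ g • A) :
    S.ncard ≤ Nat.card (orbit G A) * (Nat.card A - 1) := by
  classical
  have : Finite (AddSubgroup W) := Finite.of_injective _ SetLike.coe_injective
  have := Fintype.ofFinite (orbit G A)
  choose g hg using fun s : S => h s.1 s.2
  let f : S → Σ B : orbit G A, ↥((B.1 : Set W) \ {0}) := fun s =>
    ⟨⟨g s • A, mem_orbit _ _⟩, ⟨s.1, hg s, fun e => h0 ((Set.mem_singleton_iff.mp e) ▸ s.2)⟩⟩
  have hf : Function.Injective f := fun s t e =>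
    Subtype.ext (congrArg (fun p : Σ B : orbit G A, ↥((B.1 : Set W) \ {0}) => (p.2 : W)) e)
  have key := Nat.card_le_card_of_injective f hf
  rw [Nat.card_coe_set_eq, Nat.card_sigma] at key
  refine key.trans (le_of_eq ?_)
  have hB : ∀ B : orbit G A, Nat.card ↥((B.1 : Set W) \ {0}) = Nat.card A - 1 := fun B => ?_
  · rw [Finset.sum_congr rfl fun B _ => hB B, Finset.sum_const,
      Finset.card_univ, smul_eq_mul, ← Nat.card_eq_fintype_card]
  obtain ⟨k, hk⟩ := B.2
  simp only at hk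
  have := card_add_one B.1
  rw [show Nat.card A = Nat.card B.1 by rw [← hk]; exact (card_smul_addSubgroup k A).symm,
    Nat.card_coe_set_eq]
  omega

end Cover

variable {F : Type*} [Field F] [Fintype F] {q m : ℕ}

local notation "⟪" u ", " v "⟫" => Cfsg.hermForm _ F q u v

section Plane

variable (hF : Fintype.card F = q ^ 2)
include hF

/-- In the plane the orthogonal of an isotropic vector is its line. -/
theorem line_of_iso {v w : Fin 2 → F} (hv0 : v ≠ 0) (hv : ⟪v, v⟫ = 0) (hvw : ⟪v, w⟫ = 0) :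
    ∃ c : F, w = c • v := by
  have h1 : ⟪w, v⟫ = 0 := hswap_zero hF hvw
  simp only [Cfsg.hermForm, Fin.sum_univ_two] at hv h1
  have hv0' : v 0 ≠ 0 := by
    intro e
    rw [e, zero_mul, zero_add, mul_eq_zero] at hv
    have e1 : v 1 = 0 := hv.elim id eq_zero_of_pow_eq_zero
    exact hv0 (funext fun i => by fin_cases i <;> simp [e, e1])
  have hv1 : v 1 ^ q ≠ 0 := by
    intro e
    rw [e, mul_zero, add_zero, mul_eq_zero] at hv
    exact hv.elim hv0' fun h => hv0' (eq_zero_of_pow_eq_zero h)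
  refine ⟨w 0 / v 0, funext fun i => ?_⟩
  fin_cases i
  · simp [hv0']
  · simp only [Fin.mk_one, Pi.smul_apply, smul_eq_mul]
    rw [div_mul_eq_mul_div, eq_div_iff hv0']
    refine mul_right_cancel₀ hv1 ?_
    linear_combination v 0 * h1 - w 0 * hv

/-- An isotropic partner in the plane. -/
theorem exists_partner_two {v : Fin 2 → F} (hv0 : v ≠ 0) (hv : ⟪v, v⟫ = 0) :
    ∃ s : Fin 2 → F, ⟪s, s⟫ = 0 ∧ ⟪v, s⟫ = 1 ∧ LinearIndependent F ![v, s] := by
  obtain ⟨x, hx⟩ : ∃ x : Fin 2 → F, ⟪v, x⟫ ≠ 0 := by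
    by_contra h
    push Not at h
    refine hv0 (funext fun i => ?_)
    have := h (Pi.single i 1)
    fin_cases i <;> simpa [Cfsg.hermForm, Fin.sum_univ_two, (q_ne_zero hF)] using this
  set s₀ := (⟪v, x⟫⁻¹) ^ q • x with hs₀
  have h1 : ⟪v, s₀⟫ = 1 := by rw [hs₀, hsmul_r hF, qq hF, inv_mul_cancel₀ hx]
  clear_value s₀
  obtain ⟨t, ht⟩ := H3.exists_trace_eq hF (a := -⟪s₀, s₀⟫) (by rw [qneg hF, hswap hF])
  have h2 : ⟪v, s₀ + t • v⟫ = 1 := by rw [hadd_r hF, hsmul_r hF, h1, hv, mul_zero, add_zero]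
  refine ⟨s₀ + t • v, ?_, h2, ?_⟩
  · have h1' : ⟪s₀, v⟫ = 1 := by rw [← hswap hF, h1, one_pow]
    simp only [hadd_l hF, hadd_r hF, hsmul_l hF, hsmul_r hF, h1, h1', hv]
    linear_combination ht
  · rw [LinearIndependent.pair_iff]
    intro a b hab
    have e := congrArg (fun u => Cfsg.hermForm 2 F q u v) hab
    have h2' : ⟪s₀ + t • v, v⟫ = 1 := by rw [← hswap hF v (s₀ + t • v), h2, one_pow]
    simp only [hadd_l hF (n := 2) (a • v), hsmul_l hF (n := 2), hv, h2', hzero_l hF (n := 2)] at e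
    rw [mul_one, mul_zero, zero_add] at e
    subst e
    rw [zero_smul, add_zero, smul_eq_zero] at hab
    exact ⟨hab.resolve_right hv0, rfl⟩

/-- `SU 2` is transitive on isotropic points. -/
theorem exists_smul_line {v w : Fin 2 → F} (hv0 : v ≠ 0) (hv : ⟪v, v⟫ = 0) (hw0 : w ≠ 0)
    (hw : ⟪w, w⟫ = 0) : ∃ (g : Cfsg.SU 2 F q) (a : F), a ≠ 0 ∧ g • v = a • w := by
  obtain ⟨s, hs, hvs, hli⟩ := exists_partner_two hF hv0 hv
  obtain ⟨s', hs', hvs', hli'⟩ := exists_partner_two hF hw0 hw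
  obtain ⟨g, ⟨a, ha⟩, -⟩ := H3.exists_SU_map_pair hF hv hs hli hw hs' hli'
    (by simp [hvs, hvs'])
  refine ⟨g, a, fun h => ?_, ha⟩
  rw [h, zero_smul] at ha
  exact act_ne_zero g hv0 ha

/-- A dilation in `SU 2`. -/
theorem exists_dil {v : Fin 2 → F} (hv0 : v ≠ 0) (hv : ⟪v, v⟫ = 0) {r : F} (hr0 : r ≠ 0)
    (hr : r ^ q = r) : ∃ g : Cfsg.SU 2 F q, g • v = r • v := by
  obtain ⟨s, hs, hvs, hli⟩ := exists_partner_two hF hv0 hv
  have hsv : ⟪s, v⟫ = 1 := by rw [← hswap hF, hvs, one_pow]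
  have hli' : LinearIndependent F ![r • v, r⁻¹ • s] := by
    rw [LinearIndependent.pair_iff] at hli ⊢
    intro a b hab
    rw [smul_smul, smul_smul] at hab
    obtain ⟨h1, h2⟩ := hli _ _ hab
    exact ⟨(mul_eq_zero.mp h1).resolve_right hr0, (mul_eq_zero.mp h2).resolve_right (inv_ne_zero hr0)⟩
  obtain ⟨g, hg⟩ := H3.exists_GU_witt hF ![v, s] ![r • v, r⁻¹ • s] hli hli' fun i j => by
    fin_cases i <;> fin_cases j <;>
      simp [hsmul_l hF, hsmul_r hF, hv, hs, hvs, hsv, inv_pow, hr, hr0]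
  set M := (g.1 : Matrix (Fin 2) (Fin 2) F) with hM
  set P : Matrix (Fin 2) (Fin 2) F := Matrix.of fun i j => ![v, s] j i with hP
  have hPdet : P.det ≠ 0 := by
    have h : LinearIndependent F P.col := hli
    rw [Matrix.linearIndependent_cols_iff_isUnit, Matrix.isUnit_iff_isUnit_det] at h
    exact h.ne_zero
  have hMP : M * P = P * Matrix.diagonal ![r, r⁻¹] := by
    ext i j
    rw [Matrix.mul_diagonal, Matrix.mul_apply]
    have e := congrFun (hg j) i
    simp only [Matrix.mulVec, dotProduct] at e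
    fin_cases j <;> simpa [hP, mul_comm] using e
  have hdet : M.det = 1 := by
    have e := congrArg Matrix.det hMP
    rw [Matrix.det_mul, Matrix.det_mul, Matrix.det_diagonal] at e
    simp only [Fin.prod_univ_two, Matrix.cons_val_zero, Matrix.cons_val_one,
      mul_inv_cancel₀ hr0, mul_one] at e
    exact mul_right_cancel₀ hPdet (e.trans (one_mul _).symm)
  refine ⟨⟨⟨M, hdet⟩, H3.mem_SU_iff.2 fun x y => H3.GU_preserves g x y⟩, ?_⟩
  exact hg 0

/-- The non-zero isotropic vectors of the plane. -/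
theorem card_iso_two :
    {w : Fin 2 → F | w ≠ 0 ∧ ⟪w, w⟫ = 0}.ncard = (q + 1) * (q ^ 2 - 1) := by
  have h := card_iso hF (F := F) 2
  rw [pts_two] at h
  have : 1 ≤ q ^ 2 := Nat.one_le_pow _ _ (by have := H3.two_le_q hF; omega)
  zify [this]
  rw [h]; push_cast; ring

/-- An additive subgroup of the plane below `q ^ 2` is below `q ^ 2 / p`. -/
theorem card_small {A : AddSubgroup (Fin 2 → F)} (hA : Nat.card A < q ^ 2) (p : ℕ) [Fact p.Prime]
    [CharP F p] : p * Nat.card A ≤ q ^ 2 := by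
  have : Nat.card A ∣ Nat.card (Fin 2 → F) := AddSubgroup.card_addSubgroup_dvd_card A
  obtain ⟨n, hp, hn⟩ := FiniteField.card F p
  rw [show Nat.card (Fin 2 → F) = p ^ (n * 2 : ℕ) by
    rw [Nat.card_eq_fintype_card, Fintype.card_fun, Fintype.card_fin, hn, ← pow_mul]] at this
  obtain ⟨j, -, hj⟩ := (Nat.dvd_prime_pow hp).mp this
  rw [← hF, hn] at hA ⊢
  rw [hj] at hA ⊢
  rw [← pow_succ']
  exact Nat.pow_le_pow_right hp.pos ((Nat.pow_lt_pow_iff_right hp.one_lt).mp hA)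

end Plane

variable {D : Dat F q}

/-- A value is multiplied by the norm of the scalar. -/
theorem form_lev (g : Lev D m) (v w : Fin m → F) : ⟪g • v, g • w⟫ = cc g ^ (q + 1) * ⟪v, w⟫ := by
  rw [← D.form_up (g • v), act_up_smul, act_up_smul, hsmul_l D.hF, hsmul_r D.hF, form_act, D.form_up,
    qq D.hF, pow_succ]
  ring

variable (D) in
/-- The Levi elements whose scalar has norm one. -/
def LevN (m : ℕ) : Subgroup (Lev D m) where
  carrier := {g | cc g ^ (q + 1) = 1}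
  one_mem' := by show cc (1 : Lev D m) ^ (q + 1) = 1; rw [cc_one, one_pow]
  mul_mem' := by
    intro g h (hg : cc g ^ (q + 1) = 1) (hh : cc h ^ (q + 1) = 1)
    show cc (g * h) ^ (q + 1) = 1
    rw [cc_mul, mul_pow, hg, hh, one_mul]
  inv_mem' := by
    intro g (hg : cc g ^ (q + 1) = 1)
    show cc g⁻¹ ^ (q + 1) = 1
    have e : cc g⁻¹ * cc g = 1 := by rw [← cc_mul, inv_mul_cancel, cc_one]
    rw [eq_inv_of_mul_eq_one_left e, inv_pow, hg, inv_one]

variable (D) in
/-- `SU m` inside the norm-one part. -/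
theorem inclL_mem_levN (g : Cfsg.SU m F q) : inclL D g ∈ LevN D m := by
  show cc (inclL D g) ^ (q + 1) = 1
  rw [cc_inclL, one_pow]

/-- The orbit of `SU m` inside that of the norm-one part. -/
theorem orbit_SU_subset (v : Fin m → F) : orbit (Cfsg.SU m F q) v ⊆ orbit (LevN D m) v := by
  rintro _ ⟨g, rfl⟩
  exact ⟨⟨inclL D g, inclL_mem_levN D g⟩, inclL_smul g v⟩

variable (D) in
/-- A norm-one element scaling a given isotropic vector. -/
theorem exists_levN_scale {v : Fin 2 → F} (hv0 : v ≠ 0) (hv : ⟪v, v⟫ = 0) {x : F} (hx : x ≠ 0) :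
    ∃ g : LevN D 2, g • v = (x ^ 3 * (x ^ q)⁻¹) • v := by
  have hxq : x ^ q ≠ 0 := pow_ne_zero _ hx
  obtain ⟨g₁, hg₁⟩ := exists_dil D.hF hv0 hv (r := x * x ^ q) (mul_ne_zero hx hxq)
    (by rw [mul_pow, qq D.hF, mul_comm])
  set c := x ^ q * x⁻¹ with hc
  have hcq : c ^ q = c⁻¹ := by
    rw [hc, mul_pow, qq D.hF, inv_pow, _root_.mul_inv_rev, inv_inv]
  have hc0 : c ≠ 0 := mul_ne_zero hxq (inv_ne_zero hx)
  obtain ⟨g₂, hg₂, hg₂'⟩ := exists_levL D (m := 2) c hc0 (fun _ => c⁻¹)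
    (fun _ => by rw [pow_succ, inv_pow, hcq, inv_inv, mul_inv_cancel₀ hc0])
    (by rw [Fin.prod_univ_two, hcq, ← mul_assoc, mul_inv_cancel₀ hc0, one_mul])
  have hmem : g₂ ∈ LevN D 2 := by
    show cc g₂ ^ (q + 1) = 1
    rw [hg₂, pow_succ, hcq, inv_mul_cancel₀ hc0]
  refine ⟨⟨g₂, hmem⟩ * ⟨inclL D g₁, inclL_mem_levN D g₁⟩, ?_⟩
  show (g₂ * inclL D g₁) • v = _
  rw [mul_smul, inclL_smul, hg₁, hg₂']
  ext i
  simp only [Pi.smul_apply, smul_eq_mul]
  rw [hcq, hc, _root_.mul_inv_rev, inv_inv]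
  field_simp
  try ring

/-- The units killed by `x ↦ x ^ 3 / x ^ q`. -/
theorem card_ker_le (hF : Fintype.card F = q ^ 2) :
    Nat.card (powMonoidHom 3 / powMonoidHom q : Fˣ →* Fˣ).ker ≤ 8 ∧
      ((2 : F) = 0 → Nat.card (powMonoidHom 3 / powMonoidHom q : Fˣ →* Fˣ).ker = 1) := by
  classical
  have h8 : ∀ x : Fˣ, x ∈ (powMonoidHom 3 / powMonoidHom q : Fˣ →* Fˣ).ker → x ^ 8 = 1 := by
    intro x hx
    rw [MonoidHom.mem_ker, MonoidHom.div_apply, powMonoidHom_apply, powMonoidHom_apply,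
      div_eq_one] at hx
    have e : (x : F) ^ 9 = x := by
      have h : (x : F) ^ 3 = (x : F) ^ q := by simpa using congrArg Units.val hx
      calc (x : F) ^ 9 = ((x : F) ^ 3) ^ 3 := by ring
        _ = ((x : F) ^ q) ^ 3 := by rw [h]
        _ = ((x : F) ^ 3) ^ q := by rw [← pow_mul, ← pow_mul, mul_comm]
        _ = _ := by rw [h, qq hF]
    refine Units.ext (mul_right_cancel₀ x.ne_zero ?_)
    rw [Units.val_pow_eq_pow_val, Units.val_one, one_mul, ← pow_succ, e]
  constructor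
  · calc Nat.card (powMonoidHom 3 / powMonoidHom q : Fˣ →* Fˣ).ker
        ≤ (Finset.univ.filter fun x : Fˣ => x ^ 8 = 1).card := by
          rw [← Nat.card_eq_finsetCard]
          exact Nat.card_le_card_of_injective
            (fun x => ⟨x.1, Finset.mem_filter.mpr ⟨Finset.mem_univ _, h8 _ x.2⟩⟩)
            fun a b h => Subtype.ext (by simpa using congrArg Subtype.val h)
      _ ≤ 8 := IsCyclic.card_pow_eq_one_le (by norm_num)
  · intro h2
    rw [Subgroup.card_eq_one, eq_bot_iff]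
    intro x hx
    have h : (x : F) ^ 8 = 1 := by simpa using congrArg Units.val (h8 x hx)
    have h' : ((x : F) - 1) ^ 8 = 0 := by
      linear_combination (exp := 1) h + (-4 * (x : F) ^ 7 + 14 * (x : F) ^ 6 - 28 * (x : F) ^ 5 +
        35 * (x : F) ^ 4 - 28 * (x : F) ^ 3 + 14 * (x : F) ^ 2 - 4 * (x : F) + 1) * h2
    exact Units.ext (sub_eq_zero.mp (eq_zero_of_pow_eq_zero h'))

variable (D) in
/-- The scalars in the range of `x ↦ x ^ 3 / x ^ q` are realised on an isotropic vector. -/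
theorem exists_levN_range {v : Fin 2 → F} (hv0 : v ≠ 0) (hv : ⟪v, v⟫ = 0) {t : Fˣ}
    (ht : t ∈ (powMonoidHom 3 / powMonoidHom q : Fˣ →* Fˣ).range) :
    ∃ g : LevN D 2, g • v = (t : F) • v := by
  obtain ⟨y, rfl⟩ := ht
  obtain ⟨g, hg⟩ := exists_levN_scale D hv0 hv (x := (y : F)) y.ne_zero
  refine ⟨g, hg.trans ?_⟩
  simp [div_eq_mul_inv]

/-- A product of norm-one elements on a vector. -/
theorem mem_orbit_levN {v w : Fin 2 → F} {g : Cfsg.SU 2 F q} {g₁ : LevN D 2} {t a : F}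
    (hg₁ : g₁ • v = t • v) (hga : g • v = a • w) : (t * a) • w ∈ orbit (LevN D 2) v := by
  refine ⟨⟨inclL D g, inclL_mem_levN D g⟩ * g₁, ?_⟩
  show (⟨inclL D g, inclL_mem_levN D g⟩ * g₁) • v = _
  rw [mul_smul, hg₁, Subgroup.mk_smul, inclL_smul, smul_eq_act, act_smul, ← smul_eq_act, hga,
    smul_smul]

/-- The norm-one part moves an isotropic vector to a share of all of them. -/
theorem iso_le_orbit_levN {v : Fin 2 → F} (hv0 : v ≠ 0) (hv : ⟪v, v⟫ = 0) :
    (q + 1) * (q ^ 2 - 1) ≤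
      Nat.card (powMonoidHom 3 / powMonoidHom q : Fˣ →* Fˣ).ker * (orbit (LevN D 2) v).ncard := by
  classical
  set f : Fˣ →* Fˣ := powMonoidHom 3 / powMonoidHom q with hf
  have hidx : f.range.index = Nat.card f.ker := by
    have h1 := f.range.index_mul_card
    have h2 := f.ker.index_mul_card
    rw [Subgroup.index_ker] at h2
    refine Nat.eq_of_mul_eq_mul_right (Nat.card_pos (α := f.range)) ?_
    rw [h1, ← h2, mul_comm]
  have key : ∀ w : Fin 2 → F, w ≠ 0 → ⟪w, w⟫ = 0 →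
      ∃ c : Fˣ ⧸ f.range, ∃ o ∈ orbit (LevN D 2) v, (c.out : F) • o = w := by
    intro w hw0 hw
    have hline := exists_smul_line D.hF hv0 hv hw0 hw
    refine hline.elim fun g hga' => hga'.elim fun a haga => ?_
    have hout := QuotientGroup.mk_out_eq_mul f.range (Units.mk0 a haga.1)⁻¹
    refine hout.elim fun t hc => ?_
    refine (exists_levN_range D hv0 hv (inv_mem t.2)).elim fun g₁ hg₁ => ?_
    refine ⟨(((Units.mk0 a haga.1)⁻¹ : Fˣ) : Fˣ ⧸ f.range), _, mem_orbit_levN hg₁ haga.2, ?_⟩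
    rw [hc, smul_smul]
    push_cast [Units.val_mk0]
    have ht : ((t : Fˣ) : F) ≠ 0 := Units.ne_zero _
    have ha := haga.1
    rw [show a⁻¹ * ((t : Fˣ) : F) * (((t : Fˣ) : F)⁻¹ * a) = 1 by field_simp, one_smul]
  rw [← card_iso_two D.hF, ← hidx, Subgroup.index, ← Nat.card_coe_set_eq (orbit (LevN D 2) v),
    ← Nat.card_prod, ← Nat.card_coe_set_eq]
  have hmem : ∀ p : (Fˣ ⧸ f.range) × orbit (LevN D 2) v,
      (p.1.out : F) • p.2.1 ∈ {w : Fin 2 → F | w ≠ 0 ∧ ⟪w, w⟫ = 0} := by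
    rintro ⟨c, o, g, hg⟩
    refine ⟨smul_ne_zero (Units.ne_zero _) fun h => hv0 ?_, ?_⟩
    · exact (smul_eq_zero_iff_eq g).mp (hg.trans h)
    · subst hg
      show ⟪(c.out : F) • (g • v : Fin 2 → F), (c.out : F) • (g • v)⟫ = 0
      rw [hsmul_l D.hF, hsmul_r D.hF,
        show ⟪(g • v : Fin 2 → F), g • v⟫ = 0 from
          (form_lev g.1 v v).trans (by rw [hv, mul_zero]), mul_zero, mul_zero]
  refine Nat.card_le_card_of_surjective
    (Set.codRestrict (fun p : (Fˣ ⧸ f.range) × orbit (LevN D 2) v => (p.1.out : F) • p.2.1) _ hmem)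
    fun w => ?_
  refine (key w.1 w.2.1 w.2.2).elim fun c hc => hc.elim fun o ho => ?_
  exact ⟨(c, ⟨o, ho.1⟩), Subtype.ext ho.2⟩

end Cfsg.Agent.H2.MinU
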