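import Cfsg.Agent.H2.MinU.Four.Plane

/-!
Translates of the image of a point stabiliser in the plane.
-/

set_option autoImplicit false

namespace Cfsg.Agent.H2.MinU

open Matrix MulAction
open scoped Pointwise

variable {F : Type*} [Field F] [Fintype F] {q : ℕ} {D : Dat F q}

local notation "⟪" u ", " v "⟫" => Cfsg.hermForm _ F q u v

/-- The translates under a subgroup are not more. -/
theorem card_orbit_levN_le (A : AddSubgroup (Fin 2 → F)) :
    Nat.card (orbit (LevN D 2) A) ≤ Nat.card (orbit (Lev D 2) A) := by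
  have : Finite (AddSubgroup (Fin 2 → F)) := Finite.of_injective _ SetLike.coe_injective
  refine Nat.card_le_card_of_injective
    (fun B => (⟨B.1, B.2.elim fun g hg => ⟨g.1, hg⟩⟩ : orbit (Lev D 2) A)) ?_
  intro B C h
  exact Subtype.ext (congrArg (fun B : orbit (Lev D 2) A => B.1) h)

/-- A non-isotropic vector in the subgroup. -/
theorem bound_noniso (A : AddSubgroup (Fin 2 → F)) {a : Fin 2 → F} (ha : a ∈ A) (h : ⟪a, a⟫ ≠ 0) :
    q * (q ^ 2 - 1) ≤ Nat.card (orbit (LevN D 2) A) * (Nat.card A - 1) := by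
  have ha0 : a ≠ 0 := fun e => h (by rw [e, hzero_l D.hF])
  have h1 := card_orbit_noniso D.hF (k := 1) le_rfl (v := a) h
  rw [if_neg (by decide), pow_one] at h1
  rw [← h1]
  refine le_trans (Set.ncard_le_ncard (orbit_SU_subset (D := D) a) (Set.toFinite _)) ?_
  exact orbit_le_cover A ha ha0

/-- All non-zero values occur on one translate. -/
theorem bound_all_values (A : AddSubgroup (Fin 2 → F)) {a : Fin 2 → F} (ha : a ∈ A) (h : ⟪a, a⟫ ≠ 0) :
    (q ^ 2 - 1) * (q ^ 2 - q) ≤ Nat.card (orbit (Lev D 2) A) * (Nat.card A - 1) := by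
  classical
  have hcnt : {w : Fin 2 → F | ⟪w, w⟫ ≠ 0}.ncard = (q ^ 2 - 1) * (q ^ 2 - q) := by
    have e : {w : Fin 2 → F | ⟪w, w⟫ ≠ 0} =
        (({0} : Set (Fin 2 → F)) ∪ {w | w ≠ 0 ∧ ⟪w, w⟫ = 0})ᶜ := by
      ext w
      by_cases hw : w = 0
      · simp [hw, hzero_l D.hF]
      · simp [hw]
    rw [e, Set.ncard_compl, Set.ncard_union_eq (by simp), Set.ncard_singleton, card_iso_two D.hF,
      Nat.card_eq_fintype_card, Fintype.card_fun, Fintype.card_fin, D.hF]
    have hq := H3.two_le_q D.hF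
    obtain ⟨j, rfl⟩ : ∃ j, q = j + 2 := ⟨q - 2, by omega⟩
    have h1 : (j + 2) ^ 2 - 1 = j ^ 2 + 4 * j + 3 := by
      rw [show (j + 2) ^ 2 = j ^ 2 + 4 * j + 3 + 1 by ring]; rfl
    have h2 : (j + 2) ^ 2 - (j + 2) = j ^ 2 + 3 * j + 2 := by
      rw [show (j + 2) ^ 2 = j ^ 2 + 3 * j + 2 + (j + 2) by ring]; omega
    rw [h1, h2]
    refine Nat.sub_eq_of_eq_add ?_
    ring
  rw [← hcnt]
  refine set_le_cover A _ (fun h0 => h0 (hzero_l D.hF 0)) fun b hb => ?_
  obtain ⟨c, hc⟩ := H3.exists_norm_eq D.hF (μ := ⟪b, b⟫ / ⟪a, a⟫)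
    (by rw [div_pow, hswap D.hF, hswap D.hF])
  have hc0 : c ≠ 0 := fun e => by
    rw [e, zero_pow (Nat.succ_ne_zero q), eq_comm, div_eq_zero_iff] at hc
    exact hc.elim hb h
  obtain ⟨g, hg⟩ := exists_levL_scalar D (m := 2) (by norm_num) hc0
  have hga : ⟪g • a, g • a⟫ = ⟪b, b⟫ := by
    rw [form_lev, hg, hc, div_mul_cancel₀ _ h]
  obtain ⟨k, hk⟩ : b ∈ orbit (Cfsg.SU 2 F q) (g • a) := by
    rw [orbit_eq_class D.hF le_rfl (v := g • a) (fun e => hb (by rw [← hga, e, hzero_l D.hF]))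
      (Or.inl (by rw [hga]; exact hb))]
    exact ⟨fun e => hb (by rw [e, hzero_l D.hF]), hga.symm⟩
  refine ⟨inclL D k * g, ?_⟩
  rw [← hk, show (fun m => m • g • a) k = (inclL D k * g) • a by rw [mul_smul, inclL_smul]]
  exact AddSubgroup.smul_mem_pointwise_smul a _ A ha

/-- An isotropic vector in the subgroup. -/
theorem bound_iso (A : AddSubgroup (Fin 2 → F)) {v : Fin 2 → F} (hvA : v ∈ A) (hv0 : v ≠ 0)
    (hv : ⟪v, v⟫ = 0) :
    (q + 1) * (q ^ 2 - 1) ≤ 8 * (Nat.card (orbit (LevN D 2) A) * (Nat.card A - 1)) ∧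
    ((2 : F) = 0 → (q + 1) * (q ^ 2 - 1) ≤ (orbit (LevN D 2) v).ncard) := by
  obtain ⟨h8, h1⟩ := card_ker_le D.hF
  have h := iso_le_orbit_levN (D := D) hv0 hv
  refine ⟨h.trans (Nat.mul_le_mul h8 (orbit_le_cover A hvA hv0)), fun h2 => ?_⟩
  rw [h1 h2, one_mul] at h
  exact h

/-- A subgroup inside an isotropic line. -/
theorem bound_line (A : AddSubgroup (Fin 2 → F)) {v : Fin 2 → F} (hvA : v ∈ A) (hv0 : v ≠ 0)
    (hv : ⟪v, v⟫ = 0) (hline : ∀ x ∈ A, ∃ c : F, x = c • v) :
    q + 1 ≤ Nat.card (orbit (LevN D 2) A) := by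
  classical
  have : Finite (AddSubgroup (Fin 2 → F)) := Finite.of_injective _ SetLike.coe_injective
  let L : AddSubgroup (Fin 2 → F) := (Submodule.span F {v}).toAddSubgroup
  have hLmem : ∀ x, x ∈ L ↔ ∃ c : F, c • v = x := fun x => Submodule.mem_span_singleton
  have hL : Nat.card L = q ^ 2 := by
    rw [← D.hF, ← Nat.card_eq_fintype_card]
    refine (Nat.card_eq_of_bijective (fun c : F => (⟨c • v, (hLmem _).mpr ⟨c, rfl⟩⟩ : L)) ⟨?_, ?_⟩).symm
    · intro c d h
      exact smul_left_injective F hv0 (congrArg (fun z : L => z.1) h)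
    · rintro ⟨x, hx⟩
      obtain ⟨c, hc⟩ := (hLmem x).mp hx
      exact ⟨c, Subtype.ext hc⟩
  have hst : stabilizer (Cfsg.SU 2 F q) A ≤ stabilizer (Cfsg.SU 2 F q) L := by
    intro g hg
    rw [mem_stabilizer_iff] at hg ⊢
    refine AddSubgroup.eq_of_le_of_card_ge ?_ (card_smul_addSubgroup g L).symm.le
    intro x hx
    replace hx := (AddSubgroup.mem_pointwise_smul_iff_inv_smul_mem (a := g) (S := L) (x := x)).mp hx
    obtain ⟨c, hc⟩ := (hLmem _).mp hx
    have hgv : g • v ∈ A := hg ▸ AddSubgroup.smul_mem_pointwise_smul v g A hvA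
    obtain ⟨e, he⟩ := hline _ hgv
    refine (hLmem x).mpr ⟨c * e, ?_⟩
    rw [eq_inv_smul_iff] at hc
    rw [← hc, ← smul_smul, ← he, smul_eq_act, smul_eq_act, act_smul]
  have hk : Nat.card (orbit (Cfsg.SU 2 F q) L) ≤ Nat.card (orbit (LevN D 2) A) := by
    refine le_trans ?_ (Nat.card_le_card_of_injective
      (fun B : orbit (Cfsg.SU 2 F q) A => (⟨B.1, ?_⟩ : orbit (LevN D 2) A)) ?_)
    · rw [Nat.card_coe_set_eq, Nat.card_coe_set_eq, ← index_stabilizer, ← index_stabilizer]
      exact Subgroup.index_antitone hst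
    · obtain ⟨g, hg⟩ := B.2
      refine ⟨⟨inclL D g, inclL_mem_levN D g⟩, ?_⟩
      rw [← hg]
      ext w
      refine (AddSubgroup.mem_pointwise_smul_iff_inv_smul_mem).trans ?_
      refine Iff.trans ?_ (AddSubgroup.mem_pointwise_smul_iff_inv_smul_mem (a := g)).symm
      show (inclL D g)⁻¹ • w ∈ A ↔ _
      rw [← map_inv, inclL_smul]
    · intro B C h
      exact Subtype.ext (congrArg (fun B : orbit (LevN D 2) A => B.1) h)
  refine le_trans ?_ hk
  have key := set_le_cover (G := Cfsg.SU 2 F q) L {w : Fin 2 → F | w ≠ 0 ∧ ⟪w, w⟫ = 0}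
    (fun h => h.1 rfl) fun w hw => by
      obtain ⟨g, a, ha, hga⟩ := exists_smul_line D.hF hv0 hv hw.1 hw.2
      refine ⟨g, ?_⟩
      rw [AddSubgroup.mem_pointwise_smul_iff_inv_smul_mem, hLmem]
      refine ⟨a⁻¹, eq_inv_smul_iff.mpr ?_⟩
      rw [smul_eq_act, act_smul, ← smul_eq_act, hga, smul_smul, inv_mul_cancel₀ ha, one_smul]
  rw [card_iso_two D.hF, hL] at key
  have hq := H3.two_le_q D.hF
  exact Nat.le_of_mul_le_mul_right key (by have := Nat.pow_le_pow_left hq 2; omega)

/-- With a non-zero product, an isotropic additive subgroup is below `q ^ 2`. -/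
theorem card_iso_subgroup (A : AddSubgroup (Fin 2 → F)) (Z : AddSubgroup F) (hZ : Z ≤ skew D.hF)
    (hZ1 : Z ≠ skew D.hF) (hcomm : ∀ v ∈ A, ∀ w ∈ A, ⟪v, w⟫ - ⟪w, v⟫ ∈ Z)
    (hiso : ∀ x ∈ A, ⟪x, x⟫ = 0) (h2 : (2 : F) ≠ 0) {a b : Fin 2 → F} (ha : a ∈ A) (hb : b ∈ A)
    (hab : ⟪a, b⟫ ≠ 0) : Nat.card A < q ^ 2 := by
  classical
  have hF := D.hF
  have htr : ∀ x ∈ A, ∀ y ∈ A, ⟪x, y⟫ + ⟪y, x⟫ = 0 := by
    intro x hx y hy
    have e := hiso _ (A.add_mem hx hy)
    rw [hadd_l hF, hadd_r hF, hadd_r hF, hiso x hx, hiso y hy] at e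
    linear_combination e
  set δ := ⟪a, b⟫ with hδ
  have hba : ⟪b, a⟫ = -δ := by linear_combination htr a ha b hb
  have hbδ : δ ^ q = -δ := by rw [hδ, hswap hF, hba]
  have hli : LinearIndependent F ![a, b] := by
    rw [LinearIndependent.pair_iff]
    intro c d h
    have e1 := congrArg (fun u => Cfsg.hermForm 2 F q u a) h
    have e2 := congrArg (fun u => Cfsg.hermForm 2 F q u b) h
    simp only [hadd_l hF (n := 2), hsmul_l hF (n := 2), hzero_l hF (n := 2), hiso a ha, hiso b hb,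
      hba, ← hδ] at e1 e2
    constructor
    · exact (mul_eq_zero.mp (by linear_combination e2 : c * δ = 0)).resolve_right hab
    · exact (mul_eq_zero.mp (by linear_combination -e1 : d * δ = 0)).resolve_right hab
  have hspan : Submodule.span F (Set.range ![a, b]) = ⊤ :=
    hli.span_eq_top_of_card_eq_finrank' (by simp)
  let f : {c : F // c ^ q = c} × {c : F // c ^ q = c} → (Fin 2 → F) := fun p => p.1.1 • a + p.2.1 • b
  have hfix : Nat.card {c : F // c ^ q = c} = q := H3.card_fixed hF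
  have hsub : (A : Set (Fin 2 → F)) ⊆ Set.range f := by
    intro x hx
    obtain ⟨c, hc⟩ := (Submodule.mem_span_range_iff_exists_fun F).mp (hspan ▸ Submodule.mem_top (x := x))
    rw [Fin.sum_univ_two] at hc
    simp only [Matrix.cons_val_zero, Matrix.cons_val_one] at hc
    have e1 := htr x hx a ha
    have e2 := htr x hx b hb
    rw [← hswap hF x a, ← hc, hadd_l hF, hsmul_l hF, hsmul_l hF, hiso a ha, hba, mul_zero,
      zero_add, mul_pow, qneg hF, hbδ, neg_neg] at e1
    rw [← hswap hF x b, ← hc, hadd_l hF, hsmul_l hF, hsmul_l hF, hiso b hb, ← hδ, mul_zero,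
      add_zero, mul_pow, hbδ] at e2
    refine ⟨(⟨c 0, ?_⟩, ⟨c 1, ?_⟩), hc⟩
    · exact mul_right_cancel₀ hab (by linear_combination -e2)
    · exact mul_right_cancel₀ hab (by linear_combination e1)
  have hrange : (Set.range f).ncard ≤ q ^ 2 := by
    rw [← Nat.card_coe_set_eq]
    refine (Finite.card_range_le f).trans ?_
    rw [Nat.card_prod, hfix, sq]
  by_contra hge
  push Not at hge
  have heq : (A : Set (Fin 2 → F)) = Set.range f := Set.eq_of_subset_of_ncard_le hsub
    (by rw [← Nat.card_coe_set_eq (A : Set (Fin 2 → F))]; exact hrange.trans hge)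
  refine hZ1 (le_antisymm hZ fun z hz => ?_)
  have hz' : z + z ^ q = 0 := hz
  have h2δ : 2 * δ ≠ 0 := mul_ne_zero h2 hab
  have hl : (z / (2 * δ)) ^ q = z / (2 * δ) := by
    rw [div_pow, mul_pow, hbδ, show z ^ q = -z by linear_combination hz',
      show (2 : F) ^ q = 2 by
        rw [show (2 : F) = 1 + 1 by norm_num, qadd hF, one_pow], mul_neg, neg_div_neg_eq]
  have hmem : (z / (2 * δ)) • a ∈ A := by
    have : f (⟨_, hl⟩, ⟨0, zero_pow (q_ne_zero hF)⟩) ∈ (A : Set (Fin 2 → F)) :=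
      heq ▸ Set.mem_range_self _
    simpa [f] using this
  have := hcomm _ hmem b hb
  rw [hsmul_l hF, hsmul_r hF, ← hδ, hba, hl] at this
  rwa [show z / (2 * δ) * δ - z / (2 * δ) * -δ = z by field_simp; ring] at this

/-- The translates of the image of a stabiliser. -/
theorem plane_bound (A : AddSubgroup (Fin 2 → F)) (hA0 : A ≠ ⊥) (hA : Nat.card A ≤ q ^ 2)
    (Z : AddSubgroup F) (hZ : Z ≤ skew D.hF) (hZ1 : Z ≠ skew D.hF)
    (hcomm : ∀ v ∈ A, ∀ w ∈ A, ⟪v, w⟫ - ⟪w, v⟫ ∈ Z) :
    Nat.card A ≤ Nat.card (orbit (LevN D 2) A) * q ∧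
      (Z = ⊥ → (q + 1) * Nat.card A ≤ Nat.card (orbit (Lev D 2) A) * q ^ 2) := by
  classical
  have hF := D.hF
  have hq := H3.two_le_q hF
  obtain ⟨p, f, hp, hc, -, hpq⟩ := H3.exists_q_eq_pow hF
  haveI := Fact.mk hp
  have hle := card_orbit_levN_le (D := D) A
  have hA1 : 1 ≤ Nat.card A := Nat.card_pos
  set kN := Nat.card (orbit (LevN D 2) A)
  set k := Nat.card (orbit (Lev D 2) A)
  set a' := Nat.card A
  have hq2 : q * q = q ^ 2 := (sq q).symm
  have hbig : q + 1 ≤ kN → a' ≤ kN * q ∧ (Z = ⊥ → (q + 1) * a' ≤ k * q ^ 2) := fun h =>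
    ⟨hA.trans (by rw [← hq2]; exact Nat.mul_le_mul_right _ (by omega)),
      fun _ => Nat.mul_le_mul (h.trans hle) hA⟩
  by_cases hnon : ∃ a ∈ A, ⟪a, a⟫ ≠ 0
  · obtain ⟨a, ha, h⟩ := hnon
    have ha0 : a ≠ 0 := fun e => h (by rw [e, hzero_l hF])
    have h1 := bound_noniso (D := D) A ha h
    have hkN : q ≤ kN := by
      refine Nat.le_of_mul_le_mul_right (h1.trans (Nat.mul_le_mul_left _ (by omega))) ?_
      have := Nat.pow_le_pow_left hq 2; omega
    refine ⟨hA.trans (by rw [← hq2]; exact Nat.mul_le_mul_right _ hkN), fun hZ0 => ?_⟩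
    rcases hA.lt_or_eq with hlt | heq
    · have h2 : 2 * a' ≤ q ^ 2 :=
        (Nat.mul_le_mul_right _ hp.two_le).trans (card_small hF hlt p)
      have h3 : q * (q ^ 2 - 1) ≤ k * a' :=
        h1.trans (Nat.mul_le_mul hle (Nat.sub_le _ _))
      zify [Nat.one_le_pow 2 q (by omega)] at h3 h2 hq ⊢
      by_contra hlt'
      push Not at hlt'
      have ha' : (1 : ℤ) ≤ a' := by exact_mod_cast hA1
      have h4 := mul_lt_mul_of_pos_right hlt' (by linarith : (0 : ℤ) < a')
      have h5 := mul_le_mul_of_nonneg_left h3 (sq_nonneg (q : ℤ))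
      have h6 := mul_le_mul h2 h2 (by linarith) (sq_nonneg (q : ℤ))
      nlinarith
    · refine Nat.mul_le_mul ?_ hA
      have hq4 := Nat.pow_le_pow_left hq 2
      rcases Nat.lt_or_ge q 3 with hq3 | hq3
      · obtain rfl : q = 2 := by omega
        have h20 : (2 : F) = 0 := by
          have : p = 2 := by
            rcases f with _ | f
            · simp at hpq
            · exact ((Nat.prime_dvd_prime_iff_eq hp Nat.prime_two).mp
                ⟨p ^ f, by rw [hpq, pow_succ']⟩)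
          subst this
          exact CharP.ofNat_eq_zero' F 2 2 dvd_rfl
        by_cases hiso : ∃ b ∈ A, b ≠ 0 ∧ Cfsg.hermForm 2 F 2 b b = 0
        · obtain ⟨b, hb, hb0, hbb⟩ := hiso
          have hnot : b ∉ orbit (Lev D 2) a := by
            rintro ⟨g, rfl⟩
            rw [show (fun m => m • a) g = g • a from rfl, form_lev, mul_eq_zero] at hbb
            exact hbb.elim (pow_ne_zero _ (cc_ne g)) h
          have h3 := two_orbits_le_cover (G := Lev D 2) A ha ha0 hb hb0 hnot
          have h4 : 6 ≤ (orbit (Lev D 2) a).ncard := by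
            have e := card_orbit_noniso hF (k := 1) le_rfl (v := a) h
            rw [if_neg (by decide)] at e
            rw [show 6 = (orbit (Cfsg.SU 2 F 2) a).ncard by rw [e]; norm_num]
            refine Set.ncard_le_ncard ?_ (Set.toFinite _)
            rintro _ ⟨g, rfl⟩
            exact ⟨inclL D g, inclL_smul g a⟩
          have h5 : 9 ≤ (orbit (Lev D 2) b).ncard := by
            refine le_trans (le_trans (by norm_num) ((bound_iso (D := D) A hb hb0 hbb).2 h20))
              (Set.ncard_le_ncard ?_ (Set.toFinite _))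
            rintro _ ⟨g, rfl⟩
            exact ⟨g.1, rfl⟩
          show 3 ≤ k
          have : Nat.card A - 1 = 3 := by show a' - 1 = 3; omega
          rw [this] at h3
          omega
        · push Not at hiso
          obtain ⟨b, hb, hb'⟩ : ∃ b ∈ A, b ∉ ({0, a} : Set (Fin 2 → F)) := by
            by_contra hcon
            push Not at hcon
            have := Set.ncard_le_ncard (hcon : (A : Set (Fin 2 → F)) ⊆ {0, a}) (Set.toFinite _)
            rw [← Nat.card_coe_set_eq (A : Set (Fin 2 → F))] at this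
            have h2 : ({0, a} : Set (Fin 2 → F)).ncard ≤ 2 :=
              le_trans (Set.ncard_insert_le _ _) (by rw [Set.ncard_singleton])
            change a' ≤ _ at this
            omega
          simp only [Set.mem_insert_iff, Set.mem_singleton_iff, not_or] at hb'
          have hone : ∀ x ∈ A, x ≠ 0 → Cfsg.hermForm 2 F 2 x x = 1 := fun x hx hx0 => by
            have hne := hiso x hx hx0
            have e := hswap hF x x
            rw [sq] at e
            exact mul_left_cancel₀ hne (e.trans (mul_one _).symm)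
          have hneg : ∀ x : Fin 2 → F, -x = x := fun x => funext fun i => by
            simp only [Pi.neg_apply]
            linear_combination -(x i) * h20
          have hab : a + b ≠ 0 := fun e => hb'.2 (by rw [← hneg a, eq_neg_iff_add_eq_zero, add_comm]; exact e)
          have e := hone _ (A.add_mem ha hb) hab
          rw [hadd_l hF, hadd_r hF, hadd_r hF, hone a ha ha0, hone b hb hb'.1] at e
          have e2 := hcomm a ha b hb
          rw [hZ0, AddSubgroup.mem_bot] at e2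
          exact absurd (show (1 : F) = 0 by linear_combination -e + e2 + (Cfsg.hermForm 2 F 2 b a + 1) * h20 - (1 : F) * h20 + (1 : F) * h20)
            one_ne_zero
      · refine le_trans ?_ (Nat.le_of_mul_le_mul_left (a := q ^ 2 - q) (b := k) (c := q ^ 2 - 1) ?_
          (by omega))
        · have : 3 * q ≤ q ^ 2 := by rw [← hq2]; exact Nat.mul_le_mul_right q hq3
          omega
        · have e := bound_all_values (D := D) A ha h
          rw [show Nat.card A = q ^ 2 from heq, mul_comm k] at e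
          exact e
  push Not at hnon
  obtain ⟨v, hvA, hv0⟩ : ∃ v ∈ A, v ≠ 0 := by
    by_contra h; push Not at h; exact hA0 (eq_bot_iff.mpr fun v hv => by simp [h v hv])
  obtain ⟨hi, hi2⟩ := bound_iso (D := D) A hvA hv0 (hnon v hvA)
  have hq4 := Nat.pow_le_pow_left hq 2
  by_cases h2 : (2 : F) = 0
  · refine hbig (Nat.le_of_mul_le_mul_right (b := kN) (c := q ^ 2 - 1) ?_ (by omega))
    exact ((hi2 h2).trans (orbit_le_cover A hvA hv0)).trans (Nat.mul_le_mul_left _ (by omega))
  by_cases hall : ∀ x ∈ A, ∀ y ∈ A, ⟪x, y⟫ = 0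
  · exact hbig (bound_line A hvA hv0 (hnon v hvA) fun x hx =>
      line_of_iso hF hv0 (hnon v hvA) (hall v hvA x hx))
  push Not at hall
  obtain ⟨a, ha, b, hb, hab⟩ := hall
  have hlt := card_iso_subgroup (D := D) A Z hZ hZ1 hcomm hnon h2 ha hb hab
  have hp3 : 3 ≤ p := by
    rcases hp.two_le.lt_or_eq with h | h
    · omega
    · subst h; exact absurd (CharP.ofNat_eq_zero' F 2 2 dvd_rfl) h2
  have h3 : 3 * a' ≤ q ^ 2 := (Nat.mul_le_mul_right _ hp3).trans (card_small hF hlt p)
  have hq3 : 3 ≤ q := by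
    have : f ≠ 0 := fun e => by rw [e, pow_zero] at hpq; omega
    exact hpq ▸ hp3.trans (Nat.le_self_pow this p)
  have h8 : (q + 1) * (q ^ 2 - 1) ≤ 8 * (kN * a') :=
    hi.trans (Nat.mul_le_mul_left _ (Nat.mul_le_mul_left _ (Nat.sub_le _ _)))
  zify [Nat.one_le_pow 2 q (by omega)] at h8 h3 hq3 hA1 hle ⊢
  constructor
  · by_contra hlt'
    push Not at hlt'
    have h4 := mul_lt_mul_of_pos_right hlt' (by linarith : (0 : ℤ) < a')
    have h6 := mul_le_mul h3 h3 (by linarith) (sq_nonneg (q : ℤ))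
    have h5 := mul_le_mul_of_nonneg_left h8 (by linarith : (0 : ℤ) ≤ q)
    nlinarith
  · intro _
    by_contra hlt'
    push Not at hlt'
    have h4 := mul_lt_mul_of_pos_right hlt' (by linarith : (0 : ℤ) < a')
    have h5 := mul_le_mul_of_nonneg_left h8 (sq_nonneg (q : ℤ))
    have h6 := mul_le_mul h3 h3 (by linarith) (sq_nonneg (q : ℤ))
    have h7 := mul_le_mul_of_nonneg_left (mul_le_mul_of_nonneg_right hle (by linarith : (0 : ℤ) ≤ a'))
      (sq_nonneg (q : ℤ))
    nlinarith

end Cfsg.Agent.H2.MinU
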